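import Cfsg.Agent.Lib.Helper67.Elus.JP

set_option autoImplicit false

namespace Cfsg.Agent.Lib.Helper67.Elus

variable {F : Type*} [Field F] {V : Type*} [AddCommGroup V] [Module F V]

/-- [J2] -/
theorem jtype_ker {N : Module.End F V} {μ : Multiset ℕ} (h : JType N μ) (t : ℕ) :
    Module.finrank F (LinearMap.ker (N ^ t)) = (μ.map (fun a => min a t)).sum := by
  obtain ⟨ι, _, d, b, rfl, hc⟩ := h
  have hfin : Module.Finite F V := Module.Finite.of_basis b
  -- the shifted index map
  let f : (Σ k : ι, Fin (d k - t)) → (Σ k : ι, Fin (d k)) :=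
    fun x => ⟨x.1, ⟨(x.2 : ℕ) + t, by have := x.2.2; omega⟩⟩
  have hf : Function.Injective f := by
    rintro ⟨k, i⟩ ⟨k', i'⟩ hx
    have h1 : k = k' := congrArg Sigma.fst hx
    subst h1
    have h2 := eq_of_heq (Sigma.mk.inj hx).2
    have h3 : (i : ℕ) + t = (i' : ℕ) + t := congrArg Fin.val h2
    have h4 : i = i' := Fin.ext (by omega)
    rw [h4]
  have hli : LinearIndependent F (b ∘ f) := b.linearIndependent.comp f hf
  have hrange : LinearMap.range (N ^ t) = Submodule.span F (Set.range (b ∘ f)) := by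
    apply le_antisymm
    · rw [LinearMap.range_eq_map, ← b.span_eq, Submodule.map_span, Submodule.span_le]
      rintro _ ⟨_, ⟨⟨k, j⟩, rfl⟩, rfl⟩
      rw [chain_pow hc t k j]
      by_cases h1 : (j : ℕ) + t < d k
      · rw [dif_pos h1]
        exact Submodule.subset_span ⟨⟨k, ⟨(j : ℕ), by omega⟩⟩, rfl⟩
      · rw [dif_neg h1]
        exact Submodule.zero_mem _
    · rw [Submodule.span_le]
      rintro _ ⟨⟨k, i⟩, rfl⟩
      have hi := i.2
      refine ⟨b ⟨k, ⟨(i : ℕ), by omega⟩⟩, ?_⟩
      rw [chain_pow hc t k, dif_pos (show (i : ℕ) + t < d k by omega)]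
      rfl
  have hr : Module.finrank F (LinearMap.range (N ^ t)) = ∑ k, (d k - t) := by
    rw [hrange, finrank_span_eq_card hli, Fintype.card_sigma]
    simp only [Fintype.card_fin]
  have hV : Module.finrank F V = ∑ k, d k := by
    rw [Module.finrank_eq_card_basis b, Fintype.card_sigma]
    simp only [Fintype.card_fin]
  have hrn := LinearMap.finrank_range_add_finrank_ker (N ^ t)
  have hsum : ∑ k, (d k - t) + ∑ k, min (d k) t = ∑ k, d k := by
    rw [← Finset.sum_add_distrib]
    apply Finset.sum_congr rfl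
    intro k _
    omega
  have hgoal : (((Finset.univ : Finset ι).val.map d).map (fun a => min a t)).sum
      = ∑ k, min (d k) t := by
    rw [Multiset.map_map]
    rfl
  rw [hgoal]
  omega

end Cfsg.Agent.Lib.Helper67.Elus
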