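import Cfsg.Agent.Lib.Helper67.Elus.JDefs

set_option autoImplicit false

namespace Cfsg.Agent.Lib.Helper67.Elus

variable {F : Type*} [Field F] {V : Type*} [AddCommGroup V] [Module F V]

theorem min_sum_succ_J4 (A : Multiset ℕ) (t : ℕ) :
    (A.map (fun a => min a (t + 1))).sum
      = (A.map (fun a => min a t)).sum + Multiset.card (A.filter (fun a => t < a)) := by
  induction A using Multiset.induction_on with
  | empty => simp
  | cons a s ih =>
    rw [Multiset.map_cons, Multiset.sum_cons, Multiset.map_cons, Multiset.sum_cons, ih]
    by_cases h : t < a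
    · rw [Multiset.filter_cons_of_pos (p := fun a => t < a) s h, Multiset.card_cons]
      omega
    · rw [Multiset.filter_cons_of_neg (p := fun a => t < a) s h]
      omega

theorem card_filter_lt_J4 (A : Multiset ℕ) (t : ℕ) :
    Multiset.card (A.filter (fun a => t < a))
      = A.count (t + 1) + Multiset.card (A.filter (fun a => t + 1 < a)) := by
  induction A using Multiset.induction_on with
  | empty => simp
  | cons a s ih =>
    rw [Multiset.count_cons]
    by_cases h : t < a
    · rw [Multiset.filter_cons_of_pos (p := fun a => t < a) s h, Multiset.card_cons, ih]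
      by_cases h' : t + 1 < a
      · rw [Multiset.filter_cons_of_pos (p := fun a => t + 1 < a) s h', Multiset.card_cons,
          if_neg (by omega)]
        omega
      · rw [Multiset.filter_cons_of_neg (p := fun a => t + 1 < a) s h', if_pos (by omega)]
        omega
    · rw [Multiset.filter_cons_of_neg (p := fun a => t < a) s h,
        Multiset.filter_cons_of_neg (p := fun a => t + 1 < a) s (by omega),
        if_neg (by omega), ih]
      omega

/-- [J4] -/
theorem multiset_eq_of_min_sums {A B : Multiset ℕ} (hA : ∀ a ∈ A, 0 < a) (hB : ∀ b ∈ B, 0 < b)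
    (h : ∀ t : ℕ, (A.map (fun a => min a t)).sum = (B.map (fun a => min a t)).sum) : A = B := by
  have hc : ∀ t, Multiset.card (A.filter (fun a => t < a))
      = Multiset.card (B.filter (fun a => t < a)) := by
    intro t
    have h1 := min_sum_succ_J4 A t
    have h2 := min_sum_succ_J4 B t
    have h3 := h t
    have h4 := h (t + 1)
    omega
  ext c
  rcases c with _ | t
  · rw [Multiset.count_eq_zero_of_notMem (fun h0 => absurd (hA 0 h0) (lt_irrefl 0)),
      Multiset.count_eq_zero_of_notMem (fun h0 => absurd (hB 0 h0) (lt_irrefl 0))]
  · have h1 := card_filter_lt_J4 A t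
    have h2 := card_filter_lt_J4 B t
    have h3 := hc t
    have h4 := hc (t + 1)
    omega

end Cfsg.Agent.Lib.Helper67.Elus
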