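import Cfsg.Agent.Lib.Helper67.Elus.JDefs

set_option autoImplicit false

namespace Cfsg.Agent.Lib.Helper67.Elus

variable {F : Type*} [Field F] {V : Type*} [AddCommGroup V] [Module F V]

open Module

theorem jtype_of_isCompl {N : Module.End F V} {U W : Submodule F V} (hU : Inv N U) (hW : Inv N W)
    (h : IsCompl U W) {μ₁ μ₂ : Multiset ℕ} (h1 : JType (N.restrict hU) μ₁)
    (h2 : JType (N.restrict hW) μ₂) : JType N (μ₁ + μ₂) := by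
  obtain ⟨ι₁, _, d₁, b₁, rfl, hc₁⟩ := h1
  obtain ⟨ι₂, _, d₂, b₂, rfl, hc₂⟩ := h2
  let eqv : (Σ k : ι₁ ⊕ ι₂, Fin (Sum.elim d₁ d₂ k)) ≃ (Σ k, Fin (d₁ k)) ⊕ (Σ k, Fin (d₂ k)) :=
    Equiv.sumSigmaDistrib (fun k : ι₁ ⊕ ι₂ => Fin (Sum.elim d₁ d₂ k))
  let B : Basis (Σ k : ι₁ ⊕ ι₂, Fin (Sum.elim d₁ d₂ k)) F V :=
    ((b₁.prod b₂).map (Submodule.prodEquivOfIsCompl U W h)).reindex eqv.symm
  have hB1 : ∀ (k : ι₁) (j : Fin (d₁ k)), B ⟨Sum.inl k, j⟩ = ((b₁ ⟨k, j⟩ : U) : V) := by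
    intro k j
    show ((b₁.prod b₂).map (Submodule.prodEquivOfIsCompl U W h)).reindex eqv.symm ⟨Sum.inl k, j⟩ = _
    rw [Basis.reindex_apply, Basis.map_apply, Submodule.coe_prodEquivOfIsCompl']
    have : eqv.symm.symm ⟨Sum.inl k, j⟩ = Sum.inl ⟨k, j⟩ := rfl
    rw [this, Basis.prod_apply_inl_fst, Basis.prod_apply_inl_snd]
    simp
  have hB2 : ∀ (k : ι₂) (j : Fin (d₂ k)), B ⟨Sum.inr k, j⟩ = ((b₂ ⟨k, j⟩ : W) : V) := by
    intro k j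
    show ((b₁.prod b₂).map (Submodule.prodEquivOfIsCompl U W h)).reindex eqv.symm ⟨Sum.inr k, j⟩ = _
    rw [Basis.reindex_apply, Basis.map_apply, Submodule.coe_prodEquivOfIsCompl']
    have : eqv.symm.symm ⟨Sum.inr k, j⟩ = Sum.inr ⟨k, j⟩ := rfl
    rw [this, Basis.prod_apply_inr_fst, Basis.prod_apply_inr_snd]
    simp
  refine ⟨ι₁ ⊕ ι₂, inferInstance, Sum.elim d₁ d₂, B, ?_, ?_⟩
  · rw [← Finset.univ_disjSum_univ, Finset.val_disjSum, Multiset.disjSum, Multiset.map_add,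
      Multiset.map_map, Multiset.map_map]
    rfl
  · intro k j
    rcases k with k | k
    · change Fin (d₁ k) at j
      rw [show B ⟨Sum.inl k, j⟩ = ((b₁ ⟨k, j⟩ : U) : V) from hB1 k j]
      have e1 : N ((b₁ ⟨k, j⟩ : U) : V) = (((N.restrict hU) (b₁ ⟨k, j⟩) : U) : V) := rfl
      rw [e1, hc₁ k j]
      by_cases hj : (j : ℕ) + 1 < d₁ k
      · rw [dif_pos hj, dif_pos (show (j : ℕ) + 1 < Sum.elim d₁ d₂ (Sum.inl k) from hj)]
        exact (hB1 k ⟨(j : ℕ) + 1, hj⟩).symm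
      · rw [dif_neg hj, dif_neg (show ¬ (j : ℕ) + 1 < Sum.elim d₁ d₂ (Sum.inl k) from hj)]
        rfl
    · change Fin (d₂ k) at j
      rw [show B ⟨Sum.inr k, j⟩ = ((b₂ ⟨k, j⟩ : W) : V) from hB2 k j]
      have e1 : N ((b₂ ⟨k, j⟩ : W) : V) = (((N.restrict hW) (b₂ ⟨k, j⟩) : W) : V) := rfl
      rw [e1, hc₂ k j]
      by_cases hj : (j : ℕ) + 1 < d₂ k
      · rw [dif_pos hj, dif_pos (show (j : ℕ) + 1 < Sum.elim d₁ d₂ (Sum.inr k) from hj)]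
        exact (hB2 k ⟨(j : ℕ) + 1, hj⟩).symm
      · rw [dif_neg hj, dif_neg (show ¬ (j : ℕ) + 1 < Sum.elim d₁ d₂ (Sum.inr k) from hj)]
        rfl

end Cfsg.Agent.Lib.Helper67.Elus
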