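import Cfsg.Agent.Lib.Helper67.Elus.JDefs

set_option autoImplicit false

namespace Cfsg.Agent.Lib.Helper67.Elus

variable {F : Type*} [Field F] {V : Type*} [AddCommGroup V] [Module F V]

/-- [J1c] -/
theorem jtype_sum {N : Module.End F V} {μ : Multiset ℕ} (h : JType N μ) :
    μ.sum = Module.finrank F V := by
  obtain ⟨ι, _, d, b, rfl, -⟩ := h
  rw [Module.finrank_eq_card_basis b, Fintype.card_sigma]
  simp only [Fintype.card_fin]
  rfl

end Cfsg.Agent.Lib.Helper67.Elus
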