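import Cfsg.Agent.Lib.Helper67.Elus.JDefs

set_option autoImplicit false

namespace Cfsg.Agent.Lib.Helper67.Elus

variable {F : Type*} [Field F] {V : Type*} [AddCommGroup V] [Module F V]

open Module

/-- the triangular argument -/
theorem tri_h11 {N : Module.End F V} {e : ℕ} (hN : N ^ (e + 1) = 0) {v : V} (φ : V →ₗ[F] F)
    (hφ : φ ((N ^ e) v) = 1) (a : Fin (e + 1) → F)
    (h : ∀ i : Fin (e + 1), φ ((N ^ (i : ℕ)) (∑ j, a j • (N ^ (j : ℕ)) v)) = 0) : ∀ j, a j = 0 := by
  have main : ∀ n (hn : n < e + 1), a ⟨n, hn⟩ = 0 := by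
    intro n
    induction n using Nat.strong_induction_on with
    | _ n ih =>
      intro hn
      have h1 := h ⟨e - n, by omega⟩
      simp only [map_sum, map_smul, smul_eq_mul] at h1
      rw [Finset.sum_eq_single (⟨n, hn⟩ : Fin (e + 1))] at h1
      · have e1 : (N ^ (e - n)) ((N ^ n) v) = (N ^ e) v := by
          rw [← Module.End.mul_apply, ← pow_add]
          congr 2; omega
        simp only at h1
        rw [e1, hφ, mul_one] at h1
        exact h1
      · intro j _ hj
        rcases Nat.lt_or_ge (j : ℕ) n with hlt | hge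
        · have := ih j hlt j.2
          rw [show (⟨(j : ℕ), j.2⟩ : Fin (e + 1)) = j from rfl] at this
          rw [this, zero_mul]
        · have hgt : n < (j : ℕ) := by
            rcases Nat.lt_or_ge n (j : ℕ) with h' | h'
            · exact h'
            · exfalso; apply hj; apply Fin.ext; simp only; omega
          have e1 : (N ^ (e - n)) ((N ^ (j : ℕ)) v) = 0 := by
            rw [← Module.End.mul_apply, ← pow_add]
            have : e - n + (j : ℕ) = (e + 1) + ((j : ℕ) - n - 1) := by omega
            rw [this, pow_add, hN, zero_mul]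
            rfl
          rw [e1, map_zero, mul_zero]
      · intro hcon
        exact absurd (Finset.mem_univ _) hcon
  intro j
  exact main j j.2

theorem exists_cyclic_compl [FiniteDimensional F V] {N : Module.End F V} {e : ℕ}
    (hN : N ^ (e + 1) = 0) {v : V} (hv : (N ^ e) v ≠ 0) :
    ∃ (Z W : Submodule F V) (hZ : Inv N Z) (_ : Inv N W), IsCompl Z W ∧
      JType (N.restrict hZ) {e + 1} := by
  obtain ⟨φ, hφ⟩ : ∃ φ : V →ₗ[F] F, φ ((N ^ e) v) = 1 := by
    have h1 : ¬ ∀ φ : Module.Dual F V, φ ((N ^ e) v) = 0 := by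
      rw [Module.forall_dual_apply_eq_zero_iff]
      exact hv
    push Not at h1
    obtain ⟨φ, hφ⟩ := h1
    exact ⟨(φ ((N ^ e) v))⁻¹ • φ, by
      rw [LinearMap.smul_apply, smul_eq_mul, inv_mul_cancel₀ hφ]⟩
  let c : Fin (e + 1) → V := fun j => (N ^ (j : ℕ)) v
  have hli : LinearIndependent F c := by
    rw [Fintype.linearIndependent_iff]
    intro a ha
    apply tri_h11 hN φ hφ a
    intro i
    have : ∑ j, a j • (N ^ (j : ℕ)) v = 0 := ha
    rw [this, map_zero, map_zero]
  let T : V →ₗ[F] (Fin (e + 1) → F) := LinearMap.pi (fun i => φ ∘ₗ (N ^ (i : ℕ)))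
  have hW : ∀ w, w ∈ LinearMap.ker T ↔ ∀ i : Fin (e + 1), φ ((N ^ (i : ℕ)) w) = 0 := by
    intro w
    rw [LinearMap.mem_ker, funext_iff]
    rfl
  have hZinv : Inv N (Submodule.span F (Set.range c)) := by
    have hle : Submodule.span F (Set.range c) ≤ (Submodule.span F (Set.range c)).comap N := by
      rw [Submodule.span_le]
      rintro _ ⟨j, rfl⟩
      show N ((N ^ (j : ℕ)) v) ∈ Submodule.span F (Set.range c)
      rw [← Module.End.mul_apply, ← pow_succ']
      by_cases hj : (j : ℕ) + 1 < e + 1
      · exact Submodule.subset_span ⟨⟨(j : ℕ) + 1, hj⟩, rfl⟩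
      · have : (j : ℕ) + 1 = e + 1 := by have := j.2; omega
        rw [this, hN]
        exact Submodule.zero_mem _
    exact fun w hw => hle hw
  have hWinv : Inv N (LinearMap.ker T) := by
    intro w hw
    rw [hW] at hw ⊢
    intro i
    rw [← Module.End.mul_apply, ← pow_succ]
    by_cases hi : (i : ℕ) + 1 < e + 1
    · exact hw ⟨(i : ℕ) + 1, hi⟩
    · have : (i : ℕ) + 1 = e + 1 := by have := i.2; omega
      rw [this, hN]
      simp
  refine ⟨Submodule.span F (Set.range c), LinearMap.ker T, hZinv, hWinv, ?_, ?_⟩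
  · rw [Submodule.isCompl_iff_disjoint]
    · rw [Submodule.disjoint_def]
      intro x hxZ hxW
      rw [Submodule.mem_span_range_iff_exists_fun] at hxZ
      obtain ⟨a, rfl⟩ := hxZ
      have ha := tri_h11 hN φ hφ a ((hW _).1 hxW)
      simp [ha]
    · have h1 := LinearMap.finrank_range_add_finrank_ker T
      have h2 : finrank F (LinearMap.range T) ≤ e + 1 := by
        have := Submodule.finrank_le (LinearMap.range T)
        rwa [Module.finrank_fin_fun] at this
      have h3 := finrank_span_eq_card hli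
      rw [Fintype.card_fin] at h3
      omega
  · let eqv : (Σ _ : Unit, Fin (e + 1)) ≃ Fin (e + 1) :=
      ⟨fun x => x.2, fun j => ⟨(), j⟩, fun ⟨⟨⟩, _⟩ => rfl, fun _ => rfl⟩
    refine ⟨Unit, inferInstance, fun _ => e + 1, (Basis.span hli).reindex eqv.symm, rfl, ?_⟩
    have hb : ∀ (k : Unit) (j : Fin (e + 1)),
        ((((Basis.span hli).reindex eqv.symm) ⟨k, j⟩ : Submodule.span F (Set.range c)) : V)
          = (N ^ (j : ℕ)) v := by
      intro k j
      rw [Basis.reindex_apply, Basis.span_apply]
      rfl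
    intro k j
    apply Subtype.ext
    show N ((((Basis.span hli).reindex eqv.symm) ⟨k, j⟩ : Submodule.span F (Set.range c)) : V) = _
    rw [hb k j, ← Module.End.mul_apply, ← pow_succ']
    by_cases hj : (j : ℕ) + 1 < e + 1
    · rw [dif_pos hj]
      exact (hb k ⟨(j : ℕ) + 1, hj⟩).symm
    · rw [dif_neg hj]
      have : (j : ℕ) + 1 = e + 1 := by
        have h' : (j : ℕ) < e + 1 := j.2
        omega
      rw [this, hN]
      rfl

end Cfsg.Agent.Lib.Helper67.Elus
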