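import Cfsg.Agent.Lib.Helper67.Elus.JDefs
import Cfsg.Agent.Lib.Helper67.Elus.J1a
import Cfsg.Agent.Lib.Helper67.Elus.J1z
import Cfsg.Agent.Lib.Helper67.Elus.J1c

set_option autoImplicit false

namespace Cfsg.Agent.Lib.Helper67.Elus

open Module

universe u

theorem exists_jtype_aux_h11 {F : Type*} [Field F] (n : ℕ) :
    ∀ (V : Type u) [AddCommGroup V] [Module F V] [FiniteDimensional F V] (N : Module.End F V),
      IsNilpotent N → finrank F V = n → ∃ μ : Multiset ℕ, (∀ a ∈ μ, 0 < a) ∧ JType N μ := by
  induction n using Nat.strong_induction_on with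
  | _ n ih =>
    intro V _ _ _ N hN hn
    rcases Nat.eq_zero_or_pos n with h0 | hpos
    · subst h0
      have : Subsingleton V := Module.finrank_zero_iff.1 hn
      refine ⟨0, by simp, Empty, inferInstance, fun k => k.elim, Basis.empty V, rfl, ?_⟩
      intro k
      exact k.elim
    · have hnt : Nontrivial V := Module.nontrivial_of_finrank_pos (R := F) (by omega)
      classical
      have hN' : ∃ k, N ^ k = 0 := hN
      have hfind := Nat.find_spec hN'
      obtain ⟨v0, hv0⟩ := exists_ne (0 : V)
      have hne0 : Nat.find hN' ≠ 0 := by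
        intro h
        rw [h, pow_zero] at hfind
        apply hv0
        have := congrArg (fun f : Module.End F V => f v0) hfind
        simpa using this
      obtain ⟨e, he⟩ : ∃ e, Nat.find hN' = e + 1 := ⟨Nat.find hN' - 1, by omega⟩
      rw [he] at hfind
      have hmin : N ^ e ≠ 0 := Nat.find_min hN' (by omega)
      obtain ⟨v, hv⟩ : ∃ v, (N ^ e) v ≠ 0 := by
        by_contra hcon
        push Not at hcon
        exact hmin (LinearMap.ext hcon)
      obtain ⟨Z, W, hZ, hW, hc, hJ⟩ := exists_cyclic_compl hfind hv
      have h1 := jtype_sum hJ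
      rw [Multiset.sum_singleton] at h1
      have h2 := Submodule.finrank_add_eq_of_isCompl hc
      have hnil : IsNilpotent (N.restrict hW) := by
        refine ⟨e + 1, ?_⟩
        have hW' : ∀ x ∈ W, N x ∈ W := hW
        have e1 := Module.End.pow_restrict (f' := N) (e + 1) hW'
        have e2 : (N.restrict hW) ^ (e + 1) = (N.restrict hW') ^ (e + 1) := rfl
        rw [e2, e1]
        ext x
        show (N ^ (e + 1)) (x : V) = 0
        rw [hfind]
        rfl
      obtain ⟨μ', hμ', hJ'⟩ := ih (finrank F W) (by omega) W (N.restrict hW) hnil rfl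
      refine ⟨{e + 1} + μ', ?_, jtype_of_isCompl hZ hW hc hJ hJ'⟩
      intro a ha
      rw [Multiset.mem_add, Multiset.mem_singleton] at ha
      rcases ha with rfl | ha
      · omega
      · exact hμ' a ha

variable {F : Type*} [Field F] {V : Type*} [AddCommGroup V] [Module F V]

theorem exists_jtype [FiniteDimensional F V] (N : Module.End F V) (hN : IsNilpotent N) :
    ∃ μ : Multiset ℕ, (∀ a ∈ μ, 0 < a) ∧ JType N μ :=
  exists_jtype_aux_h11 _ V N hN rfl

end Cfsg.Agent.Lib.Helper67.Elus
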