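import Cfsg.Agent.Lib.Helper67.Elus.JP

set_option autoImplicit false

namespace Cfsg.Agent.Lib.Helper67.Elus

variable {F : Type*} [Field F] {V : Type*} [AddCommGroup V] [Module F V]

/-- [J1b] -/
theorem jtype_le {N : Module.End F V} {μ : Multiset ℕ} (h : JType N μ) {e : ℕ} (hN : N ^ e = 0) :
    ∀ a ∈ μ, a ≤ e := by
  obtain ⟨ι, _, d, b, rfl, hc⟩ := h
  intro a ha
  obtain ⟨k, -, rfl⟩ := Multiset.mem_map.1 ha
  by_contra hlt
  push Not at hlt
  have h1 := chain_pow hc e k ⟨0, by omega⟩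
  rw [hN, LinearMap.zero_apply, dif_pos (show (0 : ℕ) + e < d k by omega)] at h1
  exact b.ne_zero _ h1.symm

end Cfsg.Agent.Lib.Helper67.Elus
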