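import Cfsg.Agent.Lib.Helper67.Elus.JP

set_option autoImplicit false

namespace Cfsg.Agent.Lib.Helper67.Elus

variable {F : Type*} [Field F] {V : Type*} [AddCommGroup V] [Module F V]

/-- [J5b] -/
theorem jtype_pow_eq_zero {N : Module.End F V} {μ : Multiset ℕ} (h : JType N μ) {e : ℕ}
    (hμ : ∀ a ∈ μ, a ≤ e) : N ^ e = 0 := by
  obtain ⟨ι, _, d, b, rfl, hc⟩ := h
  apply b.ext
  rintro ⟨k, j⟩
  have hk : d k ≤ e := hμ (d k) (Multiset.mem_map_of_mem d (Finset.mem_univ_val k))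
  rw [chain_pow hc e k j, dif_neg (by omega), LinearMap.zero_apply]

end Cfsg.Agent.Lib.Helper67.Elus
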