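import Cfsg.Agent.Lib.Helper67.Elus.JDefs

set_option autoImplicit false

namespace Cfsg.Agent.Lib.Helper67.Elus

variable {F : Type*} [Field F] {V : Type*} [AddCommGroup V] [Module F V]

/-- [JP] -/
theorem chain_pow {N : Module.End F V} {ι : Type} {d : ι → ℕ}
    {b : Module.Basis (Σ k : ι, Fin (d k)) F V} (h : IsChain N d b) (t : ℕ) (k : ι)
    (j : Fin (d k)) :
    (N ^ t) (b ⟨k, j⟩) = if h : (j : ℕ) + t < d k then b ⟨k, ⟨(j : ℕ) + t, h⟩⟩ else 0 := by
  induction t generalizing j with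
  | zero =>
    have hj : (j : ℕ) + 0 < d k := j.2
    rw [dif_pos hj]
    simp
  | succ t ih =>
    rw [pow_succ, Module.End.mul_apply, h k j]
    by_cases h1 : (j : ℕ) + 1 < d k
    · rw [dif_pos h1, ih]
      by_cases h2 : (j : ℕ) + (t + 1) < d k
      · rw [dif_pos h2, dif_pos (show (j : ℕ) + 1 + t < d k by omega)]
        congr 3
        show (j : ℕ) + 1 + t = (j : ℕ) + (t + 1)
        omega
      · rw [dif_neg h2, dif_neg (show ¬ ((j : ℕ) + 1 + t < d k) by omega)]
    · rw [dif_neg h1, map_zero, dif_neg (by omega)]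

end Cfsg.Agent.Lib.Helper67.Elus
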