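/-
helper67: rows S5950, S5959 (unipotent elements of SL_n(q): Jordan types).  Shared vocabulary.
-/
import Cfsg.Agent.Lib.Helper67.Elus.Defs

set_option autoImplicit false

namespace Cfsg.Agent.Lib.Helper67.Elus

/-- `b` is a Jordan basis of `N` with chains of lengths `d k` -/
def IsChain {F : Type*} [Field F] {V : Type*} [AddCommGroup V] [Module F V] (N : Module.End F V)
    {ι : Type} (d : ι → ℕ) (b : Module.Basis (Σ k : ι, Fin (d k)) F V) : Prop :=
  ∀ (k : ι) (j : Fin (d k)), N (b ⟨k, j⟩) =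
    if h : (j : ℕ) + 1 < d k then b ⟨k, ⟨(j : ℕ) + 1, h⟩⟩ else 0

/-- `N` has a Jordan basis whose chain lengths form the multiset `μ` -/
def JType {F : Type*} [Field F] {V : Type*} [AddCommGroup V] [Module F V] (N : Module.End F V)
    (μ : Multiset ℕ) : Prop :=
  ∃ (ι : Type) (_ : Fintype ι) (d : ι → ℕ) (b : Module.Basis (Σ k : ι, Fin (d k)) F V),
    (Finset.univ : Finset ι).val.map d = μ ∧ IsChain N d b

/-- every partition of `n` with parts `≤ p` has a sub-multiset of sum `m` -/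
def PartCond (p n m : ℕ) : Prop :=
  ∀ μ : Multiset ℕ, (∀ a ∈ μ, 0 < a ∧ a ≤ p) → μ.sum = n → ∃ ν : Multiset ℕ, ν ≤ μ ∧ ν.sum = m

end Cfsg.Agent.Lib.Helper67.Elus
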