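/-
Piece J7b of helper67's second farm (S5950 + S5959) (by helper8).
-/
import Cfsg.Agent.Lib.Helper67.Elus.JDefs

set_option autoImplicit false

namespace Cfsg.Agent.Lib.Helper67.Elus

variable {F : Type*} [Field F] {V : Type*} [AddCommGroup V] [Module F V]

theorem unip_props [FiniteDimensional F V] {p : ℕ} [Fact p.Prime] [CharP F p] {N : Module.End F V}
    (hN : N ^ p = 0) : (1 + N) ^ p = 1 ∧ LinearMap.det (1 + N) = 1 := by
  have h1 : (1 + N) ^ p = 1 := by
    have h : (1 + (Polynomial.X : Polynomial F)) ^ p = 1 + Polynomial.X ^ p := by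
      rw [add_pow_char, one_pow]
    have h2 := congrArg (Polynomial.aeval N) h
    simpa [hN] using h2
  refine ⟨h1, ?_⟩
  have h3 : (LinearMap.det (1 + N)) ^ p = 1 := by
    rw [← map_pow, h1, map_one]
  have h4 : (LinearMap.det (1 + N) - 1) ^ p = 0 := by
    rw [sub_pow_char, h3, one_pow, sub_self]
  exact sub_eq_zero.1 (pow_eq_zero_iff (Fact.out : p.Prime).ne_zero |>.1 h4)

end Cfsg.Agent.Lib.Helper67.Elus
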