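/-
Piece S2 of helper67's farm for S5949/S5951 (by helper8).
-/
import Cfsg.Agent.Lib.Helper67.Elus.Defs
import Cfsg.Agent.Lib.Helper20.Tits2T.C

set_option autoImplicit false

namespace Cfsg.Agent.Lib.Helper67.Elus

variable {F : Type*} [Field F] {V : Type*} [AddCommGroup V] [Module F V]

theorem oq_dvd_finrank [Fintype F] [FiniteDimensional F V] {T : Module.End F V} {r : ℕ}
    [Fact r.Prime] (hT : T ^ r = 1) {W : Submodule F V} (hW : Inv T W)
    (hfix : ∀ w ∈ W, T w = w → w = 0) : oq F r ∣ Module.finrank F W := by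
  classical
  have : Finite W := Module.finite_of_finite F
  have : Fintype W := Fintype.ofFinite W
  let f : W → W := fun w => ⟨T w, hW w w.2⟩
  have hiter : ∀ (n : ℕ) (w : W), ((f^[n] w : W) : V) = (T ^ n) w := by
    intro n
    induction n with
    | zero => intro w; simp
    | succ n ih =>
      intro w
      rw [Function.iterate_succ_apply', pow_succ']
      change T ((f^[n] w : W) : V) = _
      rw [ih]
      rfl
  have hf : ∀ w, f^[r] w = w := by
    intro w
    apply Subtype.ext
    rw [hiter, hT]
    rfl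
  have h1 := Cfsg.Agent.Lib.Helper20.Tits2T.card_modEq_of_iter r f hf
  have h2 : Nat.card {a : W // f a = a} = 1 := by
    rw [Nat.card_eq_one_iff_unique]
    refine ⟨⟨?_⟩, ⟨⟨0, ?_⟩⟩⟩
    · rintro ⟨a, ha⟩ ⟨b, hb⟩
      apply Subtype.ext
      apply Subtype.ext
      have ha' : T (a : V) = a := congrArg Subtype.val ha
      have hb' : T (b : V) = b := congrArg Subtype.val hb
      rw [hfix a a.2 ha', hfix b b.2 hb']
    · apply Subtype.ext
      change T ((0 : W) : V) = ((0 : W) : V)
      simp
  rw [h2, Module.card_eq_pow_finrank (K := F) (V := W)] at h1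
  have h3 := (ZMod.natCast_eq_natCast_iff _ _ _).2 h1
  push_cast at h3
  exact orderOf_dvd_of_pow_eq_one h3

end Cfsg.Agent.Lib.Helper67.Elus
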