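/-
Piece POW of helper67's farm for S5949/S5951 (by helper8).
-/
import Cfsg.Agent.Lib.Helper67.Elus.Defs

set_option autoImplicit false

namespace Cfsg.Agent.Lib.Helper67.Elus

variable {F : Type*} [Field F] {V : Type*} [AddCommGroup V] [Module F V]

theorem exists_pow_eq [Fintype F] {r : ℕ} (hr0 : 0 < r) (hcop : Nat.Coprime r (Fintype.card F - 1))
    (c : F) :
    ∃ d : F, d ^ r = c := by
  classical
  by_cases hc : c = 0
  · exact ⟨0, by rw [hc, zero_pow hr0.ne']⟩
  · have hcard : Nat.card Fˣ = Fintype.card F - 1 := by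
      rw [Nat.card_eq_fintype_card, Fintype.card_units]
    have hcop' : Nat.Coprime (Nat.card Fˣ) r := by
      rw [hcard]; exact hcop.symm
    obtain ⟨d, hd⟩ := (powCoprime hcop').surjective (Units.mk0 c hc)
    refine ⟨(d : F), ?_⟩
    have := congrArg (fun u : Fˣ => (u : F)) hd
    simpa using this

end Cfsg.Agent.Lib.Helper67.Elus
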