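import Cfsg.Agent.Lib.Helper67.Elus.Defs

set_option autoImplicit false

namespace Cfsg.Agent.Lib.Helper67.Elus

variable {F : Type*} [Field F]

theorem toLin'_pow_B {n : ℕ} (A : Matrix (Fin n) (Fin n) F) (r : ℕ) :
    Matrix.toLin' (A ^ r) = (Matrix.toLin' A) ^ r := by
  induction r with
  | zero => simp [Matrix.toLin'_one]; rfl
  | succ k ih => rw [pow_succ, pow_succ, Matrix.toLin'_mul, ih]; rfl

theorem toLin'_smul_one_B {n : ℕ} (c : F) :
    Matrix.toLin' (c • (1 : Matrix (Fin n) (Fin n) F)) = c • (1 : Module.End F (Fin n → F)) := by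
  rw [map_smul, Matrix.toLin'_one]; rfl

theorem sl_forall_iff {n r : ℕ} (P : Module.End F (Fin n → F) → Prop) :
    (∀ x : Matrix.SpecialLinearGroup (Fin n) F,
      (∃ c : F, ((x ^ r : Matrix.SpecialLinearGroup (Fin n) F) : Matrix (Fin n) (Fin n) F) =
        c • (1 : Matrix (Fin n) (Fin n) F)) →
      (∀ c : F, (x : Matrix (Fin n) (Fin n) F) ≠ c • (1 : Matrix (Fin n) (Fin n) F)) →
      P (Matrix.toLin' (x : Matrix (Fin n) (Fin n) F))) ↔
    (∀ T : Module.End F (Fin n → F), LinearMap.det T = 1 → (∃ c : F, T ^ r = c • 1) →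
      (∀ c : F, T ≠ c • 1) → P T) := by
  constructor
  · intro H T hdet ⟨c, hc⟩ hns
    have hd : (LinearMap.toMatrix' T).det = 1 := by rw [LinearMap.det_toMatrix']; exact hdet
    let x : Matrix.SpecialLinearGroup (Fin n) F := ⟨LinearMap.toMatrix' T, hd⟩
    have hx : (x : Matrix (Fin n) (Fin n) F) = LinearMap.toMatrix' T := rfl
    have hxT : Matrix.toLin' (x : Matrix (Fin n) (Fin n) F) = T := by
      rw [hx, Matrix.toLin'_toMatrix']
    have h := H x ⟨c, ?_⟩ ?_
    · rwa [hxT] at h
    · apply Matrix.toLin'.injective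
      rw [Matrix.SpecialLinearGroup.coe_pow, toLin'_pow_B, toLin'_smul_one_B, hxT]
      exact hc
    · intro z hz
      apply hns z
      have := congrArg Matrix.toLin' hz
      rwa [toLin'_smul_one_B, hxT] at this
  · intro H x ⟨c, hc⟩ hns
    apply H
    · rw [LinearMap.det_toLin']; exact x.2
    · refine ⟨c, ?_⟩
      rw [← toLin'_pow_B, ← toLin'_smul_one_B, ← hc, Matrix.SpecialLinearGroup.coe_pow]
    · intro z hz
      apply hns z
      apply Matrix.toLin'.injective
      rw [toLin'_smul_one_B]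
      exact hz

theorem map_le_iff_inv {V : Type*} [AddCommGroup V] [Module F V] (T : Module.End F V)
    (W : Submodule F V) : W.map T ≤ W ↔ Inv T W := by
  rw [Submodule.map_le_iff_le_comap]
  rfl

end Cfsg.Agent.Lib.Helper67.Elus
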