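import Cfsg.Agent.Lib.Helper67.Elus.Defs

set_option autoImplicit false

namespace Cfsg.Agent.Lib.Helper67.Elus

variable {F : Type*} [Field F] {V : Type*} [AddCommGroup V] [Module F V]

/-- [CYC] -/
theorem natDegree_eq_oq [Fintype F] {r : ℕ} [Fact r.Prime] (hr : (r : F) ≠ 0) {P : Polynomial F}
    (hP : P ∣ Polynomial.cyclotomic r F) (hirr : Irreducible P) : P.natDegree = oq F r := by
  obtain ⟨p, hchar⟩ := CharP.exists F
  haveI := hchar
  obtain ⟨f, hp, hK⟩ := FiniteField.card F p
  haveI : Fact p.Prime := ⟨hp⟩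
  have hn : p.Coprime r := by
    rw [Nat.coprime_primes hp (Fact.out : r.Prime)]
    rintro rfl
    exact hr (CharP.cast_eq_zero F p)
  rw [Polynomial.natDegree_of_dvd_cyclotomic_of_irreducible hK hn hP hirr, ← orderOf_units,
    ZMod.coe_unitOfCoprime, oq, hK]

end Cfsg.Agent.Lib.Helper67.Elus
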