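/-
Piece S1 of helper67's farm for S5949/S5951 (by helper8).
-/
import Cfsg.Agent.Lib.Helper67.Elus.Defs

set_option autoImplicit false

namespace Cfsg.Agent.Lib.Helper67.Elus

variable {F : Type*} [Field F] {V : Type*} [AddCommGroup V] [Module F V]

theorem exists_inv_compl [FiniteDimensional F V] {T : Module.End F V} {r : ℕ} {c : F}
    (hT : T ^ r = c • 1) (hc : c ≠ 0) (hr : (r : F) ≠ 0) {W : Submodule F V} (hW : Inv T W) :
    ∃ W' : Submodule F V, Inv T W' ∧ IsCompl W W' := by
  have hsep : (Polynomial.X ^ r - Polynomial.C c : Polynomial F).Separable :=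
    Polynomial.separable_X_pow_sub_C c hr hc
  have h0 : Polynomial.aeval T (Polynomial.X ^ r - Polynomial.C c : Polynomial F) = 0 := by
    simp [hT, Algebra.algebraMap_eq_smul_one]
  have hss : T.IsSemisimple :=
    Module.End.isSemisimple_of_squarefree_aeval_eq_zero hsep.squarefree h0
  rw [Module.End.isSemisimple_iff] at hss
  have hW' : W ∈ T.invtSubmodule := by
    rw [Module.End.mem_invtSubmodule]
    intro w hw
    exact hW w hw
  obtain ⟨q, hq, hc⟩ := hss W hW'
  refine ⟨q, ?_, hc⟩
  rw [Module.End.mem_invtSubmodule] at hq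
  intro w hw
  exact hq hw

end Cfsg.Agent.Lib.Helper67.Elus
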