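/-
helper51 for helper67's farm (rows S5949, S5951): piece AR.
-/
import Cfsg.Agent.Lib.Helper67.Elus.Defs

set_option autoImplicit false

namespace Cfsg.Agent.Lib.Helper67.Elus

variable {F : Type*} [Field F]

theorem sign_odd_AR {r n : ℕ} (hr : Odd r) (hrn : r ∣ n) (hr0 : 0 < r) (c : F) :
    (-1) ^ n * (-c) ^ (n / r) = c ^ (n / r) := by
  obtain ⟨k, rfl⟩ := hrn
  rw [Nat.mul_div_cancel_left _ hr0, pow_mul, hr.neg_one_pow, neg_pow c k, ← mul_assoc, ← mul_pow]
  simp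

theorem sign_two_AR {n : ℕ} (hrn : 2 ∣ n) (c : F) :
    (-1) ^ n * (-c) ^ (n / 2) = (-c) ^ (n / 2) := by
  rw [Even.neg_one_pow (even_iff_two_dvd.2 hrn), one_mul]

theorem orderOf_gen_AR [Fintype F] {g : Fˣ} (hg : ∀ x, x ∈ Subgroup.zpowers g) :
    orderOf g = Fintype.card F - 1 := by
  classical
  rw [orderOf_eq_card_of_forall_mem_zpowers hg, Nat.card_eq_fintype_card, Fintype.card_units]

theorem exists_pow_gen_AR [Fintype F] {g : Fˣ} (hg : ∀ x, x ∈ Subgroup.zpowers g) (x : Fˣ) :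
    ∃ k : ℕ, g ^ k = x := by
  have h := hg x
  rw [← mem_powers_iff_mem_zpowers] at h
  exact h

/-- a non-`r`-th power is `g ^ k` with `r ∤ k` -/
theorem exists_exp_AR [Fintype F] {r : ℕ} {g : Fˣ} (hg : ∀ x, x ∈ Subgroup.zpowers g)
    (hr0 : 0 < r) {c : F} (hc : ∀ d : F, d ^ r ≠ c) :
    ∃ k : ℕ, ((g ^ k : Fˣ) : F) = c ∧ ¬ r ∣ k := by
  have hc0 : c ≠ 0 := by
    intro h
    exact hc 0 (by rw [h, zero_pow hr0.ne'])
  obtain ⟨k, hk⟩ := exists_pow_gen_AR hg (Units.mk0 c hc0)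
  refine ⟨k, by rw [hk]; rfl, ?_⟩
  rintro ⟨j, rfl⟩
  apply hc ((g ^ j : Fˣ) : F)
  have h1 : ((g ^ (r * j) : Fˣ) : F) = c := by rw [hk]; rfl
  rw [← h1, ← Units.val_pow_eq_pow_val, ← pow_mul, mul_comm]

theorem fact2_AR [Fintype F] {r : ℕ} [Fact r.Prime] {c : F} (hc : ∀ d : F, d ^ r ≠ c) {t : ℕ}
    (ht : c ^ t = 1) : r ^ padicValNat r (Fintype.card F - 1) ∣ t := by
  have hr : r.Prime := Fact.out
  obtain ⟨g, hg⟩ := IsCyclic.exists_generator (α := Fˣ)
  obtain ⟨k, hk, hrk⟩ := exists_exp_AR hg hr.pos hc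
  have h1 : (g ^ k) ^ t = 1 := by
    apply Units.ext
    rw [Units.val_pow_eq_pow_val, hk, ht]; rfl
  rw [← pow_mul] at h1
  have h2 : Fintype.card F - 1 ∣ k * t := by
    rw [← orderOf_gen_AR hg]
    exact orderOf_dvd_of_pow_eq_one h1
  have h3 : r ^ padicValNat r (Fintype.card F - 1) ∣ k * t := pow_padicValNat_dvd.trans h2
  have hcop : Nat.Coprime (r ^ padicValNat r (Fintype.card F - 1)) k :=
    Nat.Coprime.pow_left _ ((Nat.Prime.coprime_iff_not_dvd hr).2 hrk)
  exact hcop.dvd_of_dvd_mul_left h3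

theorem card_sub_one_pos_AR [Fintype F] : 0 < Fintype.card F - 1 := by
  have := Fintype.one_lt_card (α := F)
  omega

theorem fact3_AR [Fintype F] {r : ℕ} [Fact r.Prime] (hr1 : r ∣ Fintype.card F - 1) :
    ∃ u : F, (∀ d : F, d ^ r ≠ u) ∧ u ^ (r ^ padicValNat r (Fintype.card F - 1)) = 1 := by
  have hr : r.Prime := Fact.out
  obtain ⟨g, hg⟩ := IsCyclic.exists_generator (α := Fˣ)
  set M := Fintype.card F - 1 with hM
  have hMpos : 0 < M := card_sub_one_pos_AR
  set a := padicValNat r M with ha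
  have hdvd : r ^ a ∣ M := pow_padicValNat_dvd
  have hnd : ¬ r ∣ M / r ^ a := by
    have := Nat.not_dvd_ordCompl hr hMpos.ne'
    rwa [Nat.factorization_def M hr] at this
  refine ⟨((g ^ (M / r ^ a) : Fˣ) : F), ?_, ?_⟩
  · intro d hd
    have hd0 : d ≠ 0 := by
      intro h
      rw [h, zero_pow hr.ne_zero] at hd
      exact (Units.ne_zero _) hd.symm
    obtain ⟨j, hj⟩ := exists_pow_gen_AR hg (Units.mk0 d hd0)
    have h1 : g ^ (j * r) = g ^ (M / r ^ a) := by
      apply Units.ext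
      rw [← hd, pow_mul, hj, Units.val_pow_eq_pow_val]; rfl
    rw [pow_eq_pow_iff_modEq, orderOf_gen_AR hg] at h1
    exact hnd ((Nat.ModEq.dvd_iff h1 hr1).1 (dvd_mul_left _ _))
  · rw [← Units.val_pow_eq_pow_val, ← pow_mul, Nat.div_mul_cancel hdvd, hM, ← orderOf_gen_AR hg,
      pow_orderOf_eq_one]; rfl

theorem neg_nonsq_AR {e : F} (he : e * e = -1) {c : F} (hc : ∀ d : F, d ^ 2 ≠ c) :
    ∀ d : F, d ^ 2 ≠ -c := by
  intro d hd
  apply hc (e * d)
  rw [mul_pow, hd, pow_two, he]; ring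

theorem exists_nonpow_iff [Fintype F] {r : ℕ} [Fact r.Prime] (hr1 : r ∣ Fintype.card F - 1) (n : ℕ)
    (hn : 0 < n) :
    (∃ c : F, (∀ d : F, d ^ r ≠ c) ∧ r ∣ n ∧ (-1) ^ n * (-c) ^ (n / r) = 1) ↔
      ¬ (padicValNat r n ≤ padicValNat r (Fintype.card F - 1) ∧
        (r = 2 → Even n → Fintype.card F % 4 = 1)) := by
  have hr : r.Prime := Fact.out
  set a := padicValNat r (Fintype.card F - 1) with ha
  -- `r ^ a ∣ n / r` gives the valuation bound
  have key : r ∣ n → r ^ a ∣ n / r → ¬ padicValNat r n ≤ a := by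
    intro hrn h hle
    have h1 : r ^ (a + 1) ∣ n := by
      obtain ⟨k, rfl⟩ := hrn
      rw [Nat.mul_div_cancel_left _ hr.pos] at h
      rw [pow_succ, mul_comm]
      exact Nat.mul_dvd_mul_left _ h
    have h2 := (padicValNat_dvd_iff_le hn.ne').1 h1
    omega
  have key' : ¬ padicValNat r n ≤ a → r ∣ n ∧ r ^ a ∣ n / r := by
    intro hle
    have h1 : r ^ (a + 1) ∣ n := (padicValNat_dvd_iff_le hn.ne').2 (by omega)
    have hrn : r ∣ n := (dvd_pow_self r (Nat.succ_ne_zero a)).trans h1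
    refine ⟨hrn, ?_⟩
    obtain ⟨k, rfl⟩ := hrn
    rw [Nat.mul_div_cancel_left _ hr.pos]
    rw [pow_succ, mul_comm] at h1
    exact Nat.dvd_of_mul_dvd_mul_left hr.pos h1
  constructor
  · rintro ⟨c, hc, hrn, hsgn⟩ ⟨hle, h2⟩
    rcases hr.eq_two_or_odd' with h | hodd
    · subst h
      have hq := h2 rfl (even_iff_two_dvd.2 hrn)
      rw [sign_two_AR hrn] at hsgn
      have hsq : IsSquare (-1 : F) := FiniteField.isSquare_neg_one_iff.2 (by omega)
      obtain ⟨e, he⟩ := hsq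
      exact key hrn (fact2_AR (neg_nonsq_AR he.symm hc) hsgn) hle
    · rw [sign_odd_AR hodd hrn hr.pos] at hsgn
      exact key hrn (fact2_AR hc hsgn) hle
  · intro hnot
    by_cases hcase : r = 2 ∧ Fintype.card F % 4 ≠ 1
    · obtain ⟨h, hq⟩ := hcase
      subst h
      have hq3 : Fintype.card F % 4 = 3 := by
        have := card_sub_one_pos_AR (F := F)
        omega
      have heven : 2 ∣ n := by
        by_cases hle : padicValNat 2 n ≤ a
        · by_contra hne
          exact hnot ⟨hle, fun _ he => absurd (even_iff_two_dvd.1 he) hne⟩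
        · exact (key' hle).1
      refine ⟨-1, ?_, heven, ?_⟩
      · intro d hd
        have : IsSquare (-1 : F) := ⟨d, by rw [← hd, pow_two]⟩
        exact (FiniteField.isSquare_neg_one_iff.1 this) hq3
      · rw [sign_two_AR heven]; simp
    · have hle : ¬ padicValNat r n ≤ a := by
        intro hle
        apply hnot
        refine ⟨hle, fun h _ => ?_⟩
        by_contra hq
        exact hcase ⟨h, hq⟩
      obtain ⟨hrn, hdv⟩ := key' hle
      obtain ⟨u, hu, hu1⟩ := fact3_AR (F := F) hr1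
      have hu2 : u ^ (n / r) = 1 := by
        obtain ⟨k, hk⟩ := hdv
        rw [hk, pow_mul, hu1, one_pow]
      rcases hr.eq_two_or_odd' with h | hodd
      · subst h
        have hq : Fintype.card F % 4 = 1 := by
          by_contra hq
          exact hcase ⟨rfl, hq⟩
        have hsq : IsSquare (-1 : F) := FiniteField.isSquare_neg_one_iff.2 (by omega)
        obtain ⟨e, he⟩ := hsq
        refine ⟨-u, neg_nonsq_AR he.symm hu, hrn, ?_⟩
        rw [sign_two_AR hrn, neg_neg, hu2]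
      · exact ⟨u, hu, hrn, by rw [sign_odd_AR hodd hrn hr.pos, hu2]⟩

end Cfsg.Agent.Lib.Helper67.Elus
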