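import Cfsg.Agent.Lib.Helper67.Elus.Defs

set_option autoImplicit false

namespace Cfsg.Agent.Lib.Helper67.Elus

theorem flag_arith (i n m e s : ℕ) (hi : 0 < i) (hn : n = e + i * s) (h2m : 2 * m < n)
    (h : 2 * (m % i) ≤ n % i) :
    ∃ j₁ k₁ j₂ k₂ : ℕ, j₁ ≤ j₂ ∧ j₂ ≤ e ∧ k₁ ≤ k₂ ∧ k₂ ≤ s ∧ j₁ + i * k₁ = m ∧
      j₂ + i * k₂ = n - m := by
  have hm : i * (m / i) + m % i = m := Nat.div_add_mod m i
  have he : i * (e / i) + e % i = e := Nat.div_add_mod e i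
  have hne : n % i = e % i := by rw [hn, Nat.add_mul_mod_self_left]
  have hlt : n % i < i := Nat.mod_lt n hi
  generalize hM : m / i = M at hm
  generalize hA : m % i = a at hm h
  generalize hE : e / i = E at he
  generalize hR : e % i = ρ at he hne
  rw [hne] at h hlt
  have h2M : 2 * M ≤ E + s := by
    by_contra hcon
    have h1 : i * (E + s + 1) ≤ i * (2 * M) := Nat.mul_le_mul_left i (by omega)
    have h2 : i * (E + s + 1) = i * E + i * s + i := by ring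
    have h3 : i * (2 * M) = 2 * (i * M) := by ring
    omega
  obtain ⟨t, t', ht, ht', hτ1, hτ2⟩ : ∃ t t' : ℕ, t ≤ M ∧ t' ≤ M ∧ t + t' ≤ E ∧ 2 * M ≤ s + (t + t') ∧
      True := by
    by_cases h1 : 2 * M - s ≤ M
    · exact ⟨2 * M - s, 0, h1, by omega, by omega, by omega, trivial⟩
    · exact ⟨M, 2 * M - s - M, le_refl M, by omega, by omega, by omega, trivial⟩
  obtain ⟨k₁, hk₁⟩ : ∃ k₁, M = t + k₁ := ⟨M - t, by omega⟩
  obtain ⟨k₂, hk₂⟩ : ∃ k₂, s + t' = M + k₂ := ⟨s + t' - M, by omega⟩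
  obtain ⟨E', hE'⟩ : ∃ E', E = t + t' + E' := ⟨E - (t + t'), by omega⟩
  have e1 : i * M = i * t + i * k₁ := by rw [hk₁, mul_add]
  have e2 : i * s + i * t' = i * M + i * k₂ := by rw [← mul_add, hk₂, mul_add]
  have e3 : i * E = i * t + i * t' + i * E' := by rw [hE', mul_add, mul_add]
  refine ⟨a + i * t, k₁, e - a - i * t', k₂, ?_, ?_, ?_, ?_, ?_, ?_⟩ <;> omega

end Cfsg.Agent.Lib.Helper67.Elus
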