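import Cfsg.Agent.Lib.Helper67.Elus.Defs

set_option autoImplicit false

namespace Cfsg.Agent.Lib.Helper67.Elus

theorem sub_arith (i n m e s : ℕ) (hi : 0 < i) (hn : n = e + i * s) (hmn : m ≤ n)
    (h : m % i ≤ n % i) : ∃ j k : ℕ, j ≤ e ∧ k ≤ s ∧ j + i * k = m := by
  have hm : i * (m / i) + m % i = m := Nat.div_add_mod m i
  have hne : n % i = e % i := by rw [hn, Nat.add_mul_mod_self_left]
  have hle : e % i ≤ e := Nat.mod_le e i
  by_cases hM : m / i ≤ s
  · exact ⟨m % i, m / i, by omega, hM, by omega⟩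
  · have h1 : i * s ≤ i * (m / i) := Nat.mul_le_mul_left i (by omega)
    exact ⟨m - i * s, s, by omega, le_refl s, by omega⟩

end Cfsg.Agent.Lib.Helper67.Elus
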