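import Cfsg.Agent.Lib.Helper67.Elus.Defs

set_option autoImplicit false

namespace Cfsg.Agent.Lib.Helper67.Elus

theorem flag_arith_conv (i n m a₁ a₂ b₁ b₂ : ℕ) (hi : 0 < i) (hmn : m ≤ n) (h1 : m = a₁ + i * b₁)
    (h2 : n - m = a₂ + i * b₂) (h12 : a₁ ≤ a₂) (ha : a₂ ≤ n % i) : 2 * (m % i) ≤ n % i := by
  have hlt : n % i < i := Nat.mod_lt n hi
  have hm : m % i = a₁ := by
    rw [h1, Nat.add_mul_mod_self_left, Nat.mod_eq_of_lt (by omega)]
  have hn : n = (a₁ + a₂) + i * (b₁ + b₂) := by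
    rw [mul_add]
    omega
  have hmod : (a₁ + a₂) % i = n % i := by
    conv_rhs => rw [hn, Nat.add_mul_mod_self_left]
  rw [hm]
  by_cases hs : a₁ + a₂ < i
  · rw [Nat.mod_eq_of_lt hs] at hmod
    omega
  · have h3 : (a₁ + a₂) % i = a₁ + a₂ - i := by
      rw [Nat.mod_eq_sub_mod (by omega), Nat.mod_eq_of_lt (by omega)]
    omega

end Cfsg.Agent.Lib.Helper67.Elus
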