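import Cfsg.Agent.Lib.Helper67.Elus.DDefs

set_option autoImplicit false

/-! helper67's farm 3 for S5958, piece D1 (helper12): a spanning family of subspaces whose
dimensions add up to at most `dim V` is independent. -/

namespace Cfsg.Agent.Lib.Helper67.Elus

variable {F : Type*} [Field F] {V : Type*} [AddCommGroup V] [Module F V]

/-- [D1] -/
theorem indep_of_finrank_le [FiniteDimensional F V] {J : Type*} [Fintype J]
    (D : J → Submodule F V) (a : ℕ) (htop : iSup D = ⊤) (hle : ∀ j, Module.finrank F (D j) ≤ a)
    (hV : Module.finrank F V = a * Fintype.card J) :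
    iSupIndep D ∧ ∀ j, Module.finrank F (D j) = a := by
  classical
  set Φ : (Π₀ j, D j) →ₗ[F] V := DFinsupp.lsum ℕ (fun j => (D j).subtype) with hΦ
  have hrange : LinearMap.range Φ = ⊤ := by
    rw [hΦ, ← Submodule.iSup_eq_range_dfinsupp_lsum, htop]
  have hsurj : Function.Surjective Φ := LinearMap.range_eq_top.1 hrange
  have hfr : Module.finrank F (Π₀ j, D j) = ∑ j, Module.finrank F (D j) :=
    Module.finrank_directSum F (fun j => D j)
  have : FiniteDimensional F (Π₀ j, D j) :=
    inferInstanceAs (FiniteDimensional F (DirectSum J (fun j => D j)))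
  have h1 : Module.finrank F V ≤ Module.finrank F (Π₀ j, D j) :=
    LinearMap.finrank_le_finrank_of_surjective hsurj
  have h2 : ∑ j, Module.finrank F (D j) ≤ a * Fintype.card J := by
    calc ∑ j, Module.finrank F (D j) ≤ ∑ _j : J, a := Finset.sum_le_sum (fun j _ => hle j)
      _ = a * Fintype.card J := by simp [mul_comm]
  have hsum : ∑ j, Module.finrank F (D j) = ∑ _j : J, a := by
    have : ∑ _j : J, a = a * Fintype.card J := by simp [mul_comm]
    rw [this]
    omega
  have heq : ∀ j, Module.finrank F (D j) = a := by
    intro j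
    exact (Finset.sum_eq_sum_iff_of_le (fun j _ => hle j)).1 hsum j (Finset.mem_univ j)
  refine ⟨?_, heq⟩
  apply iSupIndep_of_dfinsupp_lsum_injective
  have hfe : Module.finrank F (Π₀ j, D j) = Module.finrank F V := by omega
  exact (LinearMap.injective_iff_surjective_of_finrank_eq_finrank hfe).2 hsurj

end Cfsg.Agent.Lib.Helper67.Elus
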