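import Cfsg.Agent.Lib.Helper67.Elus.DDefs
import Cfsg.Prelude.Def_GeometricClasses
import Cfsg.Agent.Lib.Helper67.Elus.D1

set_option autoImplicit false

namespace Cfsg.Agent.Lib.Helper67.Elus

variable {F : Type*} [Field F] {V : Type*} [AddCommGroup V] [Module F V]

theorem exists_decomp (n a t : ℕ) (hat : n = a * t) (ha : 0 < a) (ht : 2 ≤ t) :
    ∃ D : Fin t → Submodule F (Fin n → F), Cfsg.Geo.IsMDecomposition a D := by
  classical
  let e : Fin n ≃ Fin t × Fin a :=
    (finCongr (by rw [hat, mul_comm])).trans finProdFinEquiv.symm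
  let b : Module.Basis (Fin t × Fin a) F (Fin n → F) := (Pi.basisFun F (Fin n)).reindex e
  let D : Fin t → Submodule F (Fin n → F) := fun j => Submodule.span F (Set.range fun x => b (j, x))
  have hle : ∀ j, Module.finrank F (D j) ≤ a := by
    intro j
    have := finrank_range_le_card (R := F) (fun x : Fin a => b (j, x))
    simpa [Set.finrank] using this
  have htop : iSup D = ⊤ := by
    rw [eq_top_iff, ← b.span_eq, Submodule.span_le]
    rintro _ ⟨⟨j, x⟩, rfl⟩
    exact Submodule.mem_iSup_of_mem j (Submodule.subset_span ⟨x, rfl⟩)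
  have hV : Module.finrank F (Fin n → F) = a * Fintype.card (Fin t) := by
    rw [Module.finrank_fin_fun, Fintype.card_fin, hat]
  obtain ⟨hind, hdim⟩ := indep_of_finrank_le D a htop hle hV
  exact ⟨D, ⟨ht, ha, hdim, hind, htop⟩⟩

end Cfsg.Agent.Lib.Helper67.Elus
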