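import Cfsg.Agent.Lib.Helper67.Elus.DDefs
import Cfsg.Prelude.Def_GeometricClasses

set_option autoImplicit false

namespace Cfsg.Agent.Lib.Helper67.Elus

variable {F : Type*} [Field F] {V : Type*} [AddCommGroup V] [Module F V]

/-- a free action of a finite group on a finite set -/
theorem card_dvd_of_free_CD1 {G X : Type*} [Group G] [MulAction G X] [Finite G] [Finite X]
    (hfree : ∀ (g : G) (x : X), g • x = x → g = 1) : Nat.card G ∣ Nat.card X := by
  classical
  have := Fintype.ofFinite (MulAction.orbitRel.Quotient G X)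
  rw [Nat.card_congr (MulAction.selfEquivSigmaOrbits G X), Nat.card_sigma]
  apply Finset.dvd_sum
  intro ω _
  have hst : MulAction.stabilizer G ω.out = ⊥ := by
    rw [eq_bot_iff]
    intro g hg
    exact Subgroup.mem_bot.2 (hfree g _ hg)
  have h1 := MulAction.index_stabilizer G ω.out
  rw [hst, Subgroup.index_bot] at h1
  rw [h1]
  exact dvd_of_eq (Nat.card_coe_set_eq _).symm

theorem isMDecomposition_comp_CD1 {n a t : ℕ} {D : Fin t → Submodule F (Fin n → F)}
    (h : Cfsg.Geo.IsMDecomposition a D) (σ : Equiv.Perm (Fin t)) :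
    Cfsg.Geo.IsMDecomposition a (D ∘ σ) where
  two_le := h.two_le
  pos := h.pos
  finrank_eq := fun i => h.finrank_eq (σ i)
  indep := h.indep.comp σ.injective
  iSup_eq_top := by
    rw [← h.iSup_eq_top]
    exact Equiv.iSup_comp (g := D) σ

theorem isMDecomposition_injective_CD1 {n a t : ℕ} {D : Fin t → Submodule F (Fin n → F)}
    (h : Cfsg.Geo.IsMDecomposition a D) : Function.Injective D := by
  apply h.indep.injective
  intro i hi
  have h1 := h.finrank_eq i
  rw [hi, finrank_bot] at h1
  have := h.pos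
  omega

/-- the action of the symmetric group on ordered decompositions -/
@[reducible] noncomputable def actCD1 (F : Type*) [Field F] (n a t : ℕ) : MulAction (Equiv.Perm (Fin t))
    {D : Fin t → Submodule F (Fin n → F) // Cfsg.Geo.IsMDecomposition a D} where
  smul σ D := ⟨D.1 ∘ (σ⁻¹ : Equiv.Perm (Fin t)), isMDecomposition_comp_CD1 D.2 σ⁻¹⟩
  one_smul D := by
    apply Subtype.ext
    funext i
    rfl
  mul_smul σ τ D := by
    apply Subtype.ext
    funext i
    show D.1 ((σ * τ)⁻¹ i) = D.1 (τ⁻¹ (σ⁻¹ i))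
    rw [mul_inv_rev, Equiv.Perm.mul_apply]

theorem factorial_dvd_card_decomp [Fintype F] (n a t : ℕ) :
    t.factorial ∣
      Nat.card {D : Fin t → Submodule F (Fin n → F) // Cfsg.Geo.IsMDecomposition a D} := by
  classical
  let _ := actCD1 F n a t
  have hfin : Finite (Submodule F (Fin n → F)) := inferInstance
  have h1 : Nat.card (Equiv.Perm (Fin t)) = t.factorial := by
    rw [Nat.card_eq_fintype_card, Fintype.card_perm, Fintype.card_fin]
  rw [← h1]
  apply card_dvd_of_free_CD1
  intro σ D hD
  have h2 : ∀ i, D.1 (σ⁻¹ i) = D.1 i := fun i => congrFun (congrArg Subtype.val hD) i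
  have h3 : σ⁻¹ = 1 := by
    ext i
    rw [isMDecomposition_injective_CD1 D.2 (h2 i)]
    rfl
  exact inv_eq_one.1 h3

end Cfsg.Agent.Lib.Helper67.Elus
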