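import Cfsg.Agent.Lib.Helper67.Elus.DDefs
import Cfsg.Prelude.Def_GeometricClasses

set_option autoImplicit false

/-! helper67's farm 3 for S5958, piece CD2 (helper12): the number of decompositions divides
`|GL_n(q)|` (the general linear group is transitive on them). -/

namespace Cfsg.Agent.Lib.Helper67.Elus

variable {F : Type*} [Field F] {V : Type*} [AddCommGroup V] [Module F V]

open scoped Pointwise

theorem smul_eq_map_CD2 (g : V ≃ₗ[F] V) (W : Submodule F V) :
    g • W = W.map (g : V →ₗ[F] V) := by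
  ext x
  simp only [Submodule.mem_map]
  constructor
  · rintro ⟨y, hy, rfl⟩
    exact ⟨y, hy, rfl⟩
  · rintro ⟨y, hy, rfl⟩
    exact ⟨y, hy, rfl⟩

theorem eq_span_basis_CD2 {κ : Type*} (W : Submodule F V) (v : Module.Basis κ F W) :
    W = Submodule.span F (Set.range (fun k => (v k : V))) := by
  have h := congrArg (Submodule.map W.subtype) v.span_eq
  rw [Submodule.map_span, Submodule.map_subtype_top, ← Set.range_comp] at h
  exact h.symm

theorem exists_equiv_CD2 [FiniteDimensional F V] {a t : ℕ} (D D' : Fin t → Submodule F V)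
    (hfr : ∀ i, Module.finrank F (D i) = a) (hind : iSupIndep D) (htop : iSup D = ⊤)
    (hfr' : ∀ i, Module.finrank F (D' i) = a) (hind' : iSupIndep D') (htop' : iSup D' = ⊤) :
    ∃ g : V ≃ₗ[F] V, ∀ j, (D j).map (g : V →ₗ[F] V) = D' j := by
  classical
  have hint : DirectSum.IsInternal D :=
    (DirectSum.isInternal_submodule_iff_iSupIndep_and_iSup_eq_top D).2 ⟨hind, htop⟩
  have hint' : DirectSum.IsInternal D' :=
    (DirectSum.isInternal_submodule_iff_iSupIndep_and_iSup_eq_top D').2 ⟨hind', htop'⟩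
  let v := fun i => Module.finBasisOfFinrankEq F (D i) (hfr i)
  let v' := fun i => Module.finBasisOfFinrankEq F (D' i) (hfr' i)
  refine ⟨(hint.collectedBasis v).equiv (hint'.collectedBasis v') (Equiv.refl _), fun j => ?_⟩
  conv_lhs => rw [eq_span_basis_CD2 (D j) (v j)]
  conv_rhs => rw [eq_span_basis_CD2 (D' j) (v' j)]
  rw [Submodule.map_span, ← Set.range_comp]
  congr 2
  funext k
  have h := (hint.collectedBasis v).equiv_apply (b' := hint'.collectedBasis v') ⟨j, k⟩
    (Equiv.refl _)
  simp only [DirectSum.IsInternal.collectedBasis_coe, Equiv.refl_apply] at h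
  exact h

theorem isMDecomposition_map_CD2 {n a t : ℕ} {D : Fin t → Submodule F (Fin n → F)}
    (hD : Cfsg.Geo.IsMDecomposition a D) (g : (Fin n → F) ≃ₗ[F] (Fin n → F)) :
    Cfsg.Geo.IsMDecomposition a (fun j => (D j).map (g : (Fin n → F) →ₗ[F] (Fin n → F))) where
  two_le := hD.two_le
  pos := hD.pos
  finrank_eq i := by rw [LinearEquiv.finrank_map_eq, hD.finrank_eq]
  indep := hD.indep.map_orderIso (Submodule.orderIsoMapComap g)
  iSup_eq_top := by
    rw [← Submodule.map_iSup, hD.iSup_eq_top, Submodule.map_top, LinearEquiv.range]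

/-- [CD2] -/
theorem card_decomp_dvd_card_GL [Fintype F] (n a t : ℕ)
    (hne : ∃ D : Fin t → Submodule F (Fin n → F), Cfsg.Geo.IsMDecomposition a D) :
    Nat.card {D : Fin t → Submodule F (Fin n → F) // Cfsg.Geo.IsMDecomposition a D} ∣
      Nat.card (GL (Fin n) F) := by
  classical
  obtain ⟨D0, hD0⟩ := hne
  have hcard : Nat.card (GL (Fin n) F) = Nat.card ((Fin n → F) ≃ₗ[F] (Fin n → F)) :=
    Nat.card_congr ((Matrix.GeneralLinearGroup.toLin (n := Fin n) (R := F)).trans
      (LinearMap.GeneralLinearGroup.generalLinearEquiv F (Fin n → F))).toEquiv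
  have horb : MulAction.orbit ((Fin n → F) ≃ₗ[F] (Fin n → F)) D0
      = {D : Fin t → Submodule F (Fin n → F) | Cfsg.Geo.IsMDecomposition a D} := by
    ext D
    constructor
    · rintro ⟨g, rfl⟩
      have := isMDecomposition_map_CD2 hD0 g
      have he : g • D0 = fun j => (D0 j).map (g : (Fin n → F) →ₗ[F] (Fin n → F)) := by
        funext j
        rw [Pi.smul_apply, smul_eq_map_CD2]
      change Cfsg.Geo.IsMDecomposition a (g • D0)
      rw [he]
      exact this
    · intro hD
      obtain ⟨g, hg⟩ := exists_equiv_CD2 D0 D hD0.finrank_eq hD0.indep hD0.iSup_eq_top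
        hD.finrank_eq hD.indep hD.iSup_eq_top
      refine ⟨g, ?_⟩
      funext j
      change (g • D0) j = D j
      rw [Pi.smul_apply, smul_eq_map_CD2, hg]
  have h1 : Nat.card {D : Fin t → Submodule F (Fin n → F) // Cfsg.Geo.IsMDecomposition a D}
      = (MulAction.stabilizer ((Fin n → F) ≃ₗ[F] (Fin n → F)) D0).index := by
    rw [MulAction.index_stabilizer, horb]
    rfl
  rw [h1, hcard]
  exact Subgroup.index_dvd_card _

end Cfsg.Agent.Lib.Helper67.Elus
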