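/-
Piece M2a of helper67's farm for S5949/S5951 (by helper8).
-/
import Cfsg.Agent.Lib.Helper67.Elus.Defs

set_option autoImplicit false

namespace Cfsg.Agent.Lib.Helper67.Elus

variable {F : Type*} [Field F] {V : Type*} [AddCommGroup V] [Module F V]

theorem dvd_finrank_of_not_pow [FiniteDimensional F V] {T : Module.End F V} {r : ℕ} [Fact r.Prime]
    {c : F} (hT : T ^ r = c • 1) (hc : ∀ d : F, d ^ r ≠ c) {W : Submodule F V} (hW : Inv T W) :
    r ∣ Module.finrank F W := by
  have hrp : r.Prime := Fact.out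
  have hc0 : c ≠ 0 := by
    intro h
    exact hc 0 (by rw [h, zero_pow hrp.ne_zero])
  let S : Module.End F W := T.restrict hW
  have hpow : ∀ (n : ℕ) (w : W), (((S ^ n) w : W) : V) = (T ^ n) w := by
    intro n
    induction n with
    | zero => intro w; simp
    | succ n ih =>
      intro w
      rw [pow_succ', pow_succ']
      change T (((S ^ n) w : W) : V) = _
      rw [ih]
      rfl
  have hS : S ^ r = c • 1 := by
    ext w
    rw [hpow, hT]
    rfl
  have hdet : (LinearMap.det S) ^ r = c ^ Module.finrank F W := by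
    rw [← map_pow, hS, LinearMap.det_smul, map_one, mul_one]
  by_contra hnd
  have hcop : Nat.Coprime (Module.finrank F W) r :=
    ((Nat.Prime.coprime_iff_not_dvd hrp).2 hnd).symm
  -- Bezout in ℤ
  have hb := Int.gcd_eq_gcd_ab (Module.finrank F W) r
  have hg : Int.gcd (Module.finrank F W : ℤ) (r : ℤ) = 1 := by
    rw [Int.gcd_natCast_natCast]; exact hcop
  rw [hg] at hb
  set a := Int.gcdA (Module.finrank F W) r
  set b := Int.gcdB (Module.finrank F W) r
  apply hc ((LinearMap.det S) ^ a * c ^ b)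
  have h1 : c = c ^ ((Module.finrank F W : ℤ) * a + (r : ℤ) * b) := by
    rw [← hb]; simp
  rw [mul_pow]
  conv_rhs => rw [h1]
  rw [zpow_add₀ hc0, zpow_mul, zpow_natCast, ← hdet, mul_comm (r : ℤ) b, zpow_mul, zpow_natCast,
    ← zpow_natCast, ← zpow_natCast, ← zpow_mul, ← zpow_mul, mul_comm a, zpow_mul, zpow_natCast]

end Cfsg.Agent.Lib.Helper67.Elus
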