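/-
Piece M2b of helper67's farm for S5949/S5951 (by helper8).
-/
import Cfsg.Agent.Lib.Helper67.Elus.M2a

set_option autoImplicit false

namespace Cfsg.Agent.Lib.Helper67.Elus

variable {F : Type*} [Field F] {V : Type*} [AddCommGroup V] [Module F V]

theorem exists_inv_finrank_eq_r [FiniteDimensional F V] {T : Module.End F V} {r : ℕ} [Fact r.Prime]
    {c : F} (hT : T ^ r = c • 1) (hc : ∀ d : F, d ^ r ≠ c) {W : Submodule F V} (hW : Inv T W)
    (hne : W ≠ ⊥) : ∃ Z : Submodule F V, Z ≤ W ∧ Inv T Z ∧ Module.finrank F Z = r := by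
  have hrp : r.Prime := Fact.out
  obtain ⟨w, hwW, hw0⟩ := Submodule.exists_mem_ne_zero_of_ne_bot hne
  have hpowW : ∀ n : ℕ, (T ^ n) w ∈ W := by
    intro n
    induction n with
    | zero => simpa using hwW
    | succ n ih =>
      rw [pow_succ']
      exact hW _ ih
  let Z : Submodule F V := Submodule.span F (Set.range fun k : Fin r => (T ^ (k : ℕ)) w)
  have hZW : Z ≤ W := by
    rw [Submodule.span_le]
    rintro _ ⟨k, rfl⟩
    exact hpowW _
  have hwZ : w ∈ Z := by
    apply Submodule.subset_span
    exact ⟨⟨0, hrp.pos⟩, by simp⟩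
  have hZinv : Inv T Z := by
    intro z hz
    induction hz using Submodule.span_induction with
    | mem x hx =>
      obtain ⟨k, rfl⟩ := hx
      by_cases hk : (k : ℕ) + 1 < r
      · apply Submodule.subset_span
        refine ⟨⟨(k : ℕ) + 1, hk⟩, ?_⟩
        change (T ^ ((k : ℕ) + 1)) w = _
        rw [pow_succ']
        rfl
      · have hk' : (k : ℕ) + 1 = r := by have := k.2; omega
        have : T ((T ^ (k : ℕ)) w) = c • w := by
          have h1 : T ((T ^ (k : ℕ)) w) = (T ^ ((k : ℕ) + 1)) w := by
            rw [pow_succ']; rfl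
          rw [h1, hk', hT]
          rfl
        rw [this]
        exact Z.smul_mem c hwZ
    | zero => simp
    | add x y _ _ hx hy => rw [map_add]; exact Z.add_mem hx hy
    | smul a x _ hx => rw [map_smul]; exact Z.smul_mem a hx
  refine ⟨Z, hZW, hZinv, ?_⟩
  have hle : Module.finrank F Z ≤ r := by
    have := finrank_range_le_card (R := F) (fun k : Fin r => (T ^ (k : ℕ)) w)
    rw [Fintype.card_fin] at this
    exact this
  have hpos : 0 < Module.finrank F Z := by
    rw [Module.finrank_pos_iff_exists_ne_zero]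
    exact ⟨⟨w, hwZ⟩, fun h => hw0 (congrArg Subtype.val h)⟩
  have hdvd : r ∣ Module.finrank F Z := dvd_finrank_of_not_pow hT hc hZinv
  exact le_antisymm hle (Nat.le_of_dvd hpos hdvd)

end Cfsg.Agent.Lib.Helper67.Elus
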