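/-
helper51 for helper67's farm (rows S5949, S5951): piece M2d.
-/
import Cfsg.Agent.Lib.Helper67.Elus.Defs

set_option autoImplicit false

namespace Cfsg.Agent.Lib.Helper67.Elus

variable {F : Type*} [Field F] {V : Type*} [AddCommGroup V] [Module F V]

open Polynomial in
theorem charpoly_dvd_M2d {n : ℕ} (A : Matrix (Fin n) (Fin n) F) {r : ℕ} {c : F}
    (hA : A ^ r = c • 1) : A.charpoly ∣ (X ^ r - C c : F[X]) ^ n := by
  have hcomm : Commute (Matrix.scalar (Fin n) (X : F[X])) ((C : F →+* F[X]).mapMatrix A) :=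
    Matrix.scalar_commute _ (fun _ => Commute.all _ _) _
  have h := hcomm.mul_geom_sum₂ r
  have h1 : (Matrix.scalar (Fin n) (X : F[X])) ^ r - ((C : F →+* F[X]).mapMatrix A) ^ r
      = Matrix.scalar (Fin n) (X ^ r - C c : F[X]) := by
    rw [← map_pow, ← map_pow, hA, map_sub]
    congr 1
    ext i j
    by_cases hij : i = j
    · subst hij; simp
    · simp [hij]
  rw [h1] at h
  have hdet := congrArg Matrix.det h
  rw [Matrix.det_mul] at hdet
  have h2 : (Matrix.scalar (Fin n) (X ^ r - C c : F[X])).det = (X ^ r - C c : F[X]) ^ n := by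
    simp [Matrix.scalar_apply, Matrix.det_diagonal]
  rw [h2] at hdet
  exact ⟨_, hdet.symm⟩

open Polynomial in
theorem det_matrix_M2d {n : ℕ} (A : Matrix (Fin n) (Fin n) F) {r : ℕ} [Fact r.Prime] {c : F}
    (hA : A ^ r = c • 1) (hc : ∀ d : F, d ^ r ≠ c) :
    A.det = (-1) ^ n * (-c) ^ (n / r) := by
  have hr : r.Prime := Fact.out
  have hirr : Irreducible (X ^ r - C c : F[X]) := X_pow_sub_C_irreducible_of_prime hr hc
  have hmon : (X ^ r - C c : F[X]).Monic := monic_X_pow_sub_C c hr.ne_zero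
  obtain ⟨k, -, hk⟩ := (dvd_prime_pow hirr.prime n).1 (charpoly_dvd_M2d A hA)
  have hEq : A.charpoly = (X ^ r - C c : F[X]) ^ k :=
    eq_of_monic_of_associated (Matrix.charpoly_monic A) (hmon.pow k) hk
  have hdeg : n = k * r := by
    have h1 := congrArg natDegree hEq
    rw [Matrix.charpoly_natDegree_eq_dim, hmon.natDegree_pow, natDegree_X_pow_sub_C] at h1
    simpa using h1
  have hk' : n / r = k := by
    rw [hdeg]; exact Nat.mul_div_cancel _ hr.pos
  rw [Matrix.det_eq_sign_charpoly_coeff, hEq, hk', coeff_zero_eq_eval_zero]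
  simp [hr.ne_zero]

theorem det_of_not_pow [FiniteDimensional F V] {T : Module.End F V} {r : ℕ} [Fact r.Prime]
    {c : F} (hT : T ^ r = c • 1) (hc : ∀ d : F, d ^ r ≠ c) :
    LinearMap.det T = (-1) ^ Module.finrank F V * (-c) ^ (Module.finrank F V / r) := by
  classical
  let b := Module.finBasis F V
  have hA : (LinearMap.toMatrix b b T) ^ r = c • 1 := by
    rw [LinearMap.toMatrix_pow, hT]
    simp [LinearMap.toMatrix_one]
  rw [← LinearMap.det_toMatrix b T]
  exact det_matrix_M2d _ hA hc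

end Cfsg.Agent.Lib.Helper67.Elus
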