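import Cfsg.Agent.Lib.Helper67.Elus.Defs

set_option autoImplicit false

namespace Cfsg.Agent.Lib.Helper67.Elus

variable {F : Type*} [Field F] {V : Type*} [AddCommGroup V] [Module F V]

open Polynomial in
/-- [M2f] -/
theorem exists_root_end (n r : ℕ) (hr : 0 < r) (hrn : r ∣ n) (c : F) :
    ∃ T : Module.End F (Fin n → F), T ^ r = c • 1 := by
  have hg : (X ^ r - C c : F[X]).Monic := monic_X_pow_sub_C c hr.ne'
  have hdeg : (X ^ r - C c : F[X]).natDegree = r := natDegree_X_pow_sub_C
  let K := AdjoinRoot (X ^ r - C c : F[X])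
  let pb : PowerBasis F K := AdjoinRoot.powerBasis' hg
  haveI : Module.Finite F K := pb.finite
  have hK : Module.finrank F K = r := by
    rw [pb.finrank, AdjoinRoot.powerBasis'_dim, hdeg]
  have hroot : (AdjoinRoot.root (X ^ r - C c : F[X])) ^ r = algebraMap F K c := by
    have h := AdjoinRoot.eval₂_root (X ^ r - C c : F[X])
    rw [eval₂_sub, eval₂_pow, eval₂_X, eval₂_C, sub_eq_zero] at h
    exact h
  have hE : Module.finrank F (Fin (n / r) → K) = Module.finrank F (Fin n → F) := by
    rw [Module.finrank_pi_fintype, Module.finrank_fin_fun]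
    simp only [hK, Finset.sum_const, Finset.card_univ, Fintype.card_fin, smul_eq_mul]
    exact Nat.div_mul_cancel hrn
  let φ : (Fin (n / r) → K) ≃ₗ[F] (Fin n → F) := LinearEquiv.ofFinrankEq _ _ hE
  let T₀ : Module.End F (Fin (n / r) → K) :=
    Algebra.lsmul F F (Fin (n / r) → K) (AdjoinRoot.root (X ^ r - C c : F[X]))
  refine ⟨φ.conjAlgEquiv F T₀, ?_⟩
  rw [← map_pow]
  have : T₀ ^ r = c • 1 := by
    show (Algebra.lsmul F F (Fin (n / r) → K) (AdjoinRoot.root (X ^ r - C c : F[X]))) ^ r = _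
    rw [← map_pow, hroot, AlgHom.commutes, Algebra.algebraMap_eq_smul_one]
  rw [this, map_smul, map_one]

end Cfsg.Agent.Lib.Helper67.Elus
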