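import Cfsg.Agent.Lib.Helper67.Elus.S4
import Cfsg.Agent.Lib.Helper67.Elus.M2a
import Cfsg.Agent.Lib.Helper67.Elus.M2b
import Cfsg.Agent.Lib.Helper67.Elus.M2d
import Cfsg.Agent.Lib.Helper67.Elus.M2f
import Cfsg.Agent.Lib.Helper67.Elus.POW
import Cfsg.Agent.Lib.Helper67.Elus.AR
import Cfsg.Agent.Lib.Helper67.Elus.AR2
import Cfsg.Agent.Lib.Helper67.Elus.AR3

set_option autoImplicit false

namespace Cfsg.Agent.Lib.Helper67.Elus

variable {F : Type*} [Field F] {V : Type*} [AddCommGroup V] [Module F V]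

/-! ### the order of `q` modulo `r` -/

theorem coprime_card [Fintype F] {r : ℕ} [Fact r.Prime] (hr : (r : F) ≠ 0) :
    Nat.Coprime (Fintype.card F) r := by
  obtain ⟨p, hchar⟩ := CharP.exists F
  haveI := hchar
  obtain ⟨f, hp, hK⟩ := FiniteField.card F p
  rw [hK]
  apply Nat.Coprime.pow_left
  rw [Nat.coprime_primes hp (Fact.out : r.Prime)]
  rintro rfl
  exact hr (CharP.cast_eq_zero F p)

theorem oq_pos [Fintype F] {r : ℕ} [Fact r.Prime] (hr : (r : F) ≠ 0) : 0 < oq F r := by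
  have h := coprime_card hr
  have : oq F r = orderOf (ZMod.unitOfCoprime _ h) := by
    rw [← orderOf_units, ZMod.coe_unitOfCoprime, oq]
  rw [this]
  exact orderOf_pos _

theorem oq_eq_one_iff [Fintype F] {r : ℕ} [Fact r.Prime] :
    oq F r = 1 ↔ r ∣ Fintype.card F - 1 := by
  have h1 : 1 ≤ Fintype.card F := Fintype.card_pos
  rw [oq, orderOf_eq_one_iff, ← ZMod.natCast_eq_zero_iff, Nat.cast_sub h1, sub_eq_zero,
    Nat.cast_one]

theorem coprime_of_two_le_oq [Fintype F] {r : ℕ} [Fact r.Prime] (h : 2 ≤ oq F r) :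
    Nat.Coprime r (Fintype.card F - 1) := by
  rw [Nat.Prime.coprime_iff_not_dvd Fact.out]
  intro hd
  rw [← oq_eq_one_iff] at hd
  omega

/-! ### reduction to `T ^ r = 1` -/

theorem reduce_pow {T : Module.End F V} {r : ℕ} {c d : F} (hT : T ^ r = c • 1) (hd : d ^ r = c)
    (hd0 : d ≠ 0) : (d⁻¹ • T) ^ r = 1 ∧ ∀ W : Submodule F V, Inv (d⁻¹ • T) W → Inv T W := by
  constructor
  · rw [smul_pow, hT, smul_smul, ← hd, inv_pow, inv_mul_cancel₀ (pow_ne_zero _ hd0), one_smul]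
  · intro W hW w hw
    have h := W.smul_mem d (hW w hw)
    rwa [LinearMap.smul_apply, smul_smul, mul_inv_cancel₀ hd0, one_smul] at h

theorem finrank_eq_Fx_add [Fintype F] [FiniteDimensional F V] {T : Module.End F V} {r : ℕ}
    [Fact r.Prime] (hr : (r : F) ≠ 0) (hT : T ^ r = 1) :
    ∃ s : ℕ, Module.finrank F V = Module.finrank F (Fx T) + oq F r * s := by
  obtain ⟨s, hs⟩ := finrank_inv_eq hr hT (W := ⊤) (fun w _ => trivial)
  rw [top_inf_eq, finrank_top] at hs
  exact ⟨s, hs⟩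

theorem exists_inv_sub_of_one [Fintype F] [FiniteDimensional F V] {T : Module.End F V} {r : ℕ}
    [Fact r.Prime] (hr : (r : F) ≠ 0) (hT : T ^ r = 1) (m : ℕ) (hm : m ≤ Module.finrank F V)
    (h : m % oq F r ≤ Module.finrank F V % oq F r) :
    ∃ W : Submodule F V, Module.finrank F W = m ∧ Inv T W := by
  obtain ⟨s, hs⟩ := finrank_eq_Fx_add hr hT
  obtain ⟨j, k, hj, hk, hjk⟩ := sub_arith (oq F r) _ m _ s (oq_pos hr) hs hm h
  obtain ⟨U, W, -, -, hW, -, hWd⟩ := exists_inv_flag hr hT j j k k le_rfl hj le_rfl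
    (by rw [hs]; exact Nat.add_le_add_left (Nat.mul_le_mul_left _ hk) _)
  exact ⟨W, by rw [hWd, hjk], hW⟩

theorem exists_inv_flag_of_one [Fintype F] [FiniteDimensional F V] {T : Module.End F V} {r : ℕ}
    [Fact r.Prime] (hr : (r : F) ≠ 0) (hT : T ^ r = 1) (m : ℕ) (hm : 2 * m < Module.finrank F V)
    (h : 2 * (m % oq F r) ≤ Module.finrank F V % oq F r) :
    ∃ U W : Submodule F V, U ≤ W ∧ Module.finrank F U = m ∧
      Module.finrank F W = Module.finrank F V - m ∧ Inv T U ∧ Inv T W := by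
  obtain ⟨s, hs⟩ := finrank_eq_Fx_add hr hT
  obtain ⟨j₁, k₁, j₂, k₂, hj, hj2, hk, hk2, h1, h2⟩ :=
    flag_arith (oq F r) _ m _ s (oq_pos hr) hs hm h
  obtain ⟨U, W, hUW, hU, hW, hUd, hWd⟩ := exists_inv_flag hr hT j₁ j₂ k₁ k₂ hj hj2 hk
    (by rw [hs]; exact Nat.add_le_add_left (Nat.mul_le_mul_left _ hk2) _)
  exact ⟨U, W, hUW, by rw [hUd, h1], by rw [hWd, h2], hU, hW⟩

/-! ### `c` not an `r`-th power -/

theorem exists_inv_flag_of_not_pow [FiniteDimensional F V] {T : Module.End F V} {r : ℕ}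
    [Fact r.Prime] {c : F} (hr : (r : F) ≠ 0) (hT : T ^ r = c • 1) (hc : ∀ d : F, d ^ r ≠ c)
    (a b : ℕ) (hab : a ≤ b) (hb : r * b ≤ Module.finrank F V) :
    ∃ U W : Submodule F V, U ≤ W ∧ Inv T U ∧ Inv T W ∧ Module.finrank F U = r * a ∧
      Module.finrank F W = r * b := by
  have hc0 : c ≠ 0 := by
    rintro rfl
    exact hc 0 (zero_pow (Fact.out : r.Prime).ne_zero)
  obtain ⟨U, W, hUW, -, hU, hW, hUd, hWd⟩ := exists_inv_chain (T := T) (d := r) (B := ⊤)
    (fun w _ => trivial) (fun W hW => exists_inv_compl hT hc0 hr hW)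
    (fun W _ hW hne => exists_inv_finrank_eq_r hT hc hW hne) a b hab (by rw [finrank_top]; exact hb)
  exact ⟨U, W, hUW, hU, hW, hUd, hWd⟩

/-- a scalar is not a root of a non-power -/
theorem ne_smul_of_not_pow [Nontrivial V] {T : Module.End F V} {r : ℕ} {c : F}
    (hT : T ^ r = c • 1) (hc : ∀ d : F, d ^ r ≠ c) (z : F) : T ≠ z • 1 := by
  rintro rfl
  obtain ⟨v, hv⟩ := exists_ne (0 : V)
  apply hc z
  rw [smul_pow, one_pow] at hT
  have h := congrArg (fun S : Module.End F V => S v) hT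
  simp only [LinearMap.smul_apply, Module.End.one_apply] at h
  have h2 : (z ^ r - c) • v = 0 := by rw [sub_smul, h, sub_self]
  rcases smul_eq_zero.1 h2 with h3 | h3
  · exact sub_eq_zero.1 h3
  · exact absurd h3 hv

/-- the non-power alternative is impossible under the arithmetic condition -/
theorem exists_pow_of_cond [Fintype F] {n : ℕ} (hn : 0 < n) {T : Module.End F (Fin n → F)} {r : ℕ}
    [Fact r.Prime] {c : F} (hr1 : r ∣ Fintype.card F - 1) (hT : T ^ r = c • 1)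
    (hdet : LinearMap.det T = 1)
    (hcond : padicValNat r n ≤ padicValNat r (Fintype.card F - 1) ∧
        (r = 2 → Even n → Fintype.card F % 4 = 1)) : ∃ d : F, d ^ r = c := by
  by_contra hc
  push Not at hc
  have hrn : r ∣ n := by
    have := dvd_finrank_of_not_pow hT hc (W := ⊤) (fun w _ => trivial)
    rwa [finrank_top, Module.finrank_fin_fun] at this
  have hd := det_of_not_pow hT hc
  rw [Module.finrank_fin_fun, hdet] at hd
  exact (exists_nonpow_iff hr1 n hn).1 ⟨c, hc, hrn, hd.symm⟩ hcond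

/-- the witness in the non-power case -/
theorem exists_witness_not_pow [Fintype F] {n : ℕ} (hn : 0 < n) {r : ℕ} [Fact r.Prime]
    (hr1 : r ∣ Fintype.card F - 1)
    (hcond : ¬ (padicValNat r n ≤ padicValNat r (Fintype.card F - 1) ∧
        (r = 2 → Even n → Fintype.card F % 4 = 1))) :
    ∃ (T : Module.End F (Fin n → F)) (c : F), T ^ r = c • 1 ∧ (∀ d : F, d ^ r ≠ c) ∧
      LinearMap.det T = 1 ∧ ∀ z : F, T ≠ z • 1 := by
  obtain ⟨c, hc, hrn, hdet⟩ := (exists_nonpow_iff (F := F) hr1 n hn).2 hcond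
  obtain ⟨T, hT⟩ := exists_root_end n r (Fact.out : r.Prime).pos hrn c
  haveI : Nonempty (Fin n) := ⟨⟨0, hn⟩⟩
  refine ⟨T, c, hT, hc, ?_, ne_smul_of_not_pow hT hc⟩
  rw [det_of_not_pow hT hc, Module.finrank_fin_fun, hdet]

theorem ne_zero_of_det [FiniteDimensional F V] [Nontrivial V] {T : Module.End F V} {r : ℕ} {c : F}
    (hT : T ^ r = c • 1) (hdet : LinearMap.det T = 1) : c ≠ 0 := by
  rintro rfl
  have h := congrArg LinearMap.det hT
  have hpos : 0 < Module.finrank F V := Module.finrank_pos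
  rw [map_pow, hdet, one_pow, LinearMap.det_smul, zero_pow hpos.ne', zero_mul] at h
  exact one_ne_zero h

end Cfsg.Agent.Lib.Helper67.Elus
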