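import Cfsg.Agent.Lib.Helper67.Elus.DDefs
import Cfsg.Agent.Lib.Helper67.Elus.Core

set_option autoImplicit false

namespace Cfsg.Agent.Lib.Helper67.Elus

variable {F : Type*} [Field F] {V : Type*} [AddCommGroup V] [Module F V]

theorem oq_le_of_dvd_card_GL [Fintype F] {r : ℕ} [Fact r.Prime] (hr : (r : F) ≠ 0) (n : ℕ)
    (h : r ∣ Nat.card (GL (Fin n) F)) : oq F r ≤ n := by
  have hrp : r.Prime := Fact.out
  rw [Matrix.card_GL_field] at h
  obtain ⟨i, -, hi⟩ := (Prime.dvd_finsetProd_iff hrp.prime _).1 h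
  have hcop := coprime_card (F := F) hr
  set q := Fintype.card F with hq
  have hq1 : 1 ≤ q := Fintype.card_pos
  have hin : (i : ℕ) < n := i.2
  have e1 : q ^ n - q ^ (i : ℕ) = q ^ (i : ℕ) * (q ^ (n - i) - 1) := by
    rw [Nat.mul_sub, mul_one, ← pow_add, Nat.add_sub_cancel' hin.le]
  rw [e1] at hi
  have h2 : r ∣ q ^ (n - i) - 1 :=
    (Nat.Coprime.dvd_mul_left ((hcop.pow_left _).symm)).1 hi
  have h3 : ((q : ℕ) : ZMod r) ^ (n - i) = 1 := by
    have h4 := (ZMod.natCast_eq_zero_iff _ _).2 h2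
    rw [Nat.cast_sub (Nat.one_le_pow _ _ hq1), sub_eq_zero, Nat.cast_pow, Nat.cast_one] at h4
    exact h4
  have h5 : oq F r ∣ n - i := orderOf_dvd_of_pow_eq_one h3
  have h6 := Nat.le_of_dvd (by omega) h5
  omega

end Cfsg.Agent.Lib.Helper67.Elus
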