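import Cfsg.Agent.Lib.Helper67.Elus.Defs

set_option autoImplicit false

namespace Cfsg.Agent.Lib.Helper67.Elus

variable {F : Type*} [Field F] {V : Type*} [AddCommGroup V] [Module F V]

theorem card_subspaces_congr_CNT2 {V' : Type*} [AddCommGroup V'] [Module F V'] (e : V ≃ₗ[F] V')
    (k : ℕ) :
    Nat.card {W : Submodule F V // Module.finrank F W = k} =
      Nat.card {W : Submodule F V' // Module.finrank F W = k} := by
  refine Nat.card_congr ⟨fun W => ⟨W.1.map e.toLinearMap, ?_⟩,
    fun W => ⟨W.1.map e.symm.toLinearMap, ?_⟩, ?_, ?_⟩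
  · exact (LinearEquiv.finrank_map_eq e W.1).trans W.2
  · exact (LinearEquiv.finrank_map_eq e.symm W.1).trans W.2
  · intro W
    apply Subtype.ext
    show (W.1.map e.toLinearMap).map e.symm.toLinearMap = W.1
    rw [← Submodule.map_comp]
    simp
  · intro W
    apply Subtype.ext
    show (W.1.map e.symm.toLinearMap).map e.toLinearMap = W.1
    rw [← Submodule.map_comp]
    simp

theorem card_subspaces_eq_cnt [FiniteDimensional F V] (k : ℕ) :
    Nat.card {W : Submodule F V // Module.finrank F W = k} = cnt F (Module.finrank F V) k := by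
  exact card_subspaces_congr_CNT2 (LinearEquiv.ofFinrankEq _ _ (by simp)) k

end Cfsg.Agent.Lib.Helper67.Elus
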