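import Cfsg.Agent.Lib.Helper67.Elus.CNT1

set_option autoImplicit false

namespace Cfsg.Agent.Lib.Helper67.Elus

variable {F : Type*} [Field F] {V : Type*} [AddCommGroup V] [Module F V]

theorem prod_split_CNT3 (q N k : ℕ) (hk : k ≤ N) :
    ∏ j : Fin k, (q ^ N - q ^ (j : ℕ)) =
      (∏ j : Fin k, q ^ (j : ℕ)) * ∏ j : Fin k, (q ^ (N - (j : ℕ)) - 1) := by
  rw [← Finset.prod_mul_distrib]
  refine Finset.prod_congr rfl (fun j _ => ?_)
  have hj := j.2
  rw [Nat.mul_sub, mul_one, ← pow_add]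
  congr 2
  omega

/-- the cancelled identity -/
theorem cnt_mul' [Fintype F] (N k : ℕ) (hk : k ≤ N) :
    cnt F N k * ∏ j : Fin k, (Fintype.card F ^ (k - (j : ℕ)) - 1) =
      ∏ j : Fin k, (Fintype.card F ^ (N - (j : ℕ)) - 1) := by
  have h := cnt_mul (F := F) N k hk
  rw [prod_split_CNT3 _ N k hk, prod_split_CNT3 _ k k le_rfl] at h
  have hpos : 0 < ∏ j : Fin k, Fintype.card F ^ (j : ℕ) :=
    Finset.prod_pos (fun j _ => pow_pos Fintype.card_pos _)
  apply Nat.eq_of_mul_eq_mul_left hpos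
  rw [← h]; ring

theorem not_dvd_cnt_char [Fintype F] {p : ℕ} [Fact p.Prime] [CharP F p] {N k : ℕ} (hk : k ≤ N) :
    ¬ p ∣ cnt F N k := by
  intro hdvd
  have hp : p.Prime := Fact.out
  have h := cnt_mul' (F := F) N k hk
  have h1 : p ∣ ∏ j : Fin k, (Fintype.card F ^ (N - (j : ℕ)) - 1) := by
    rw [← h]; exact Dvd.dvd.mul_right hdvd _
  obtain ⟨j, -, hj⟩ := (Prime.dvd_finsetProd_iff hp.prime _).mp h1
  have hpq : p ∣ Fintype.card F := by
    obtain ⟨n, -, hn⟩ := FiniteField.card F p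
    rw [hn]
    exact dvd_pow_self p n.ne_zero
  have hj2 := j.2
  have h2 : p ∣ Fintype.card F ^ (N - (j : ℕ)) := Dvd.dvd.trans hpq (dvd_pow_self _ (by omega))
  have h3 : 1 ≤ Fintype.card F ^ (N - (j : ℕ)) := Nat.one_le_pow _ _ Fintype.card_pos
  have h4 : p ∣ 1 := by
    have := (Nat.dvd_sub h2 hj)
    rwa [Nat.sub_sub_self h3] at this
  exact hp.one_lt.ne' (Nat.dvd_one.mp h4)

end Cfsg.Agent.Lib.Helper67.Elus
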