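import Cfsg.Agent.Lib.Helper67.Elus.CNT3

set_option autoImplicit false

namespace Cfsg.Agent.Lib.Helper67.Elus

variable {F : Type*} [Field F] {V : Type*} [AddCommGroup V] [Module F V]

theorem oq_dvd_of_dvd_CNT4 [Fintype F] {r t : ℕ} (h : r ∣ Fintype.card F ^ t - 1) :
    oq F r ∣ t := by
  have h3 : 1 ≤ Fintype.card F ^ t := Nat.one_le_pow _ _ Fintype.card_pos
  have h1 : ((Fintype.card F ^ t - 1 : ℕ) : ZMod r) = 0 := (ZMod.natCast_eq_zero_iff _ _).mpr h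
  rw [Nat.cast_sub h3, Nat.cast_pow, Nat.cast_one, sub_eq_zero] at h1
  exact orderOf_dvd_of_pow_eq_one h1

theorem not_dvd_cnt [Fintype F] {r : ℕ} [Fact r.Prime] (hr : (r : F) ≠ 0) {N k : ℕ} (hk : k ≤ N)
    (h : ∀ j < k, ¬ oq F r ∣ N - j) : ¬ r ∣ cnt F N k := by
  intro hdvd
  have hp : r.Prime := Fact.out
  have h0 := cnt_mul' (F := F) N k hk
  have h1 : r ∣ ∏ j : Fin k, (Fintype.card F ^ (N - (j : ℕ)) - 1) := by
    rw [← h0]; exact Dvd.dvd.mul_right hdvd _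
  obtain ⟨j, -, hj⟩ := (Prime.dvd_finsetProd_iff hp.prime _).mp h1
  exact h j j.2 (oq_dvd_of_dvd_CNT4 hj)

end Cfsg.Agent.Lib.Helper67.Elus
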