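import Cfsg.Agent.Lib.Helper67.Elus.CNT2

set_option autoImplicit false

namespace Cfsg.Agent.Lib.Helper67.Elus

variable {F : Type*} [Field F] {V : Type*} [AddCommGroup V] [Module F V]

theorem card_dual_CNT5 [FiniteDimensional F V] {k : ℕ} (hk : k ≤ Module.finrank F V) :
    Nat.card {W : Submodule F V // Module.finrank F W = k} =
      Nat.card {U : Submodule F (Module.Dual F V) //
        Module.finrank F U = Module.finrank F V - k} := by
  refine Nat.card_congr ⟨fun W => ⟨W.1.dualAnnihilator, ?_⟩,
    fun U => ⟨U.1.dualCoannihilator, ?_⟩, ?_, ?_⟩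
  · have h1 := Subspace.finrank_add_finrank_dualAnnihilator_eq W.1
    have h2 := W.2
    omega
  · have h1 := Subspace.finrank_add_finrank_dualCoannihilator_eq U.1
    have h2 := U.2
    omega
  · intro W
    apply Subtype.ext
    exact Subspace.dualAnnihilator_dualCoannihilator_eq
  · intro U
    apply Subtype.ext
    exact Subspace.dualCoannihilator_dualAnnihilator_eq

theorem cnt_symm [Fintype F] {N k : ℕ} (hk : k ≤ N) : cnt F N k = cnt F N (N - k) := by
  have h1 := card_dual_CNT5 (F := F) (V := Fin N → F) (k := k) (by simpa using hk)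
  rw [card_subspaces_eq_cnt, card_subspaces_eq_cnt, Subspace.dual_finrank_eq,
    Module.finrank_fin_fun] at h1
  exact h1

end Cfsg.Agent.Lib.Helper67.Elus
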