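import Cfsg.Agent.Lib.Helper67.Elus.CNT2

set_option autoImplicit false

namespace Cfsg.Agent.Lib.Helper67.Elus

variable {F : Type*} [Field F] {V : Type*} [AddCommGroup V] [Module F V]

theorem finrank_map_mkQ_CNT6 [FiniteDimensional F V] {U W : Submodule F V} (h : U ≤ W) :
    Module.finrank F (W.map U.mkQ) + Module.finrank F U = Module.finrank F W := by
  have h1 := LinearMap.finrank_range_add_finrank_ker (U.mkQ.domRestrict W)
  rw [LinearMap.range_domRestrict, LinearMap.ker_domRestrict, Submodule.ker_mkQ,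
    (Submodule.comapSubtypeEquivOfLe h).finrank_eq] at h1
  exact h1

theorem card_over_CNT6 [FiniteDimensional F V] (U : Submodule F V) {a b : ℕ}
    (hU : Module.finrank F U = a) (hab : a ≤ b) :
    Nat.card {W : Submodule F V // U ≤ W ∧ Module.finrank F W = b} =
      cnt F (Module.finrank F V - a) (b - a) := by
  have hq : Module.finrank F (V ⧸ U) = Module.finrank F V - a := by
    have := Submodule.finrank_quotient_add_finrank U
    omega
  rw [← hq, ← card_subspaces_eq_cnt]
  refine Nat.card_congr ⟨fun W => ⟨W.1.map U.mkQ, ?_⟩, fun X => ⟨X.1.comap U.mkQ, ?_, ?_⟩, ?_, ?_⟩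
  · have h1 := finrank_map_mkQ_CNT6 W.2.1
    have h2 := W.2.2
    omega
  · intro u hu
    rw [Submodule.mem_comap, Submodule.mkQ_apply, (Submodule.Quotient.mk_eq_zero U).mpr hu]
    exact X.1.zero_mem
  · have hle : U ≤ X.1.comap U.mkQ := by
      intro u hu
      rw [Submodule.mem_comap, Submodule.mkQ_apply, (Submodule.Quotient.mk_eq_zero U).mpr hu]
      exact X.1.zero_mem
    have h1 := finrank_map_mkQ_CNT6 hle
    rw [Submodule.map_comap_eq_of_surjective (Submodule.mkQ_surjective U)] at h1
    have h2 := X.2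
    omega
  · intro W
    apply Subtype.ext
    show (W.1.map U.mkQ).comap U.mkQ = W.1
    rw [Submodule.comap_map_mkQ]
    exact sup_eq_right.mpr W.2.1
  · intro X
    apply Subtype.ext
    exact Submodule.map_comap_eq_of_surjective (Submodule.mkQ_surjective U) X.1

theorem card_flags [Fintype F] (n a b : ℕ) (hab : a ≤ b) (hb : b ≤ n) :
    Nat.card {P : Submodule F (Fin n → F) × Submodule F (Fin n → F) //
        P.1 ≤ P.2 ∧ Module.finrank F ↥P.1 = a ∧ Module.finrank F ↥P.2 = b} =
      cnt F n a * cnt F (n - a) (b - a) := by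
  classical
  have : Finite (Submodule F (Fin n → F)) :=
    Finite.of_injective (fun W => (W : Set (Fin n → F))) SetLike.coe_injective
  have : Fintype {U : Submodule F (Fin n → F) // Module.finrank F U = a} := Fintype.ofFinite _
  have e : {P : Submodule F (Fin n → F) × Submodule F (Fin n → F) //
        P.1 ≤ P.2 ∧ Module.finrank F ↥P.1 = a ∧ Module.finrank F ↥P.2 = b} ≃
      Σ U : {U : Submodule F (Fin n → F) // Module.finrank F U = a},
        {W : Submodule F (Fin n → F) // U.1 ≤ W ∧ Module.finrank F W = b} :=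
    ⟨fun P => ⟨⟨P.1.1, P.2.2.1⟩, ⟨P.1.2, P.2.1, P.2.2.2⟩⟩,
     fun s => ⟨(s.1.1, s.2.1), s.2.2.1, s.1.2, s.2.2.2⟩, fun _ => rfl, fun _ => rfl⟩
  rw [Nat.card_congr e, Nat.card_sigma,
    Finset.sum_congr rfl (fun U _ => card_over_CNT6 U.1 U.2 hab), Finset.sum_const, smul_eq_mul,
    Finset.card_univ, Module.finrank_fin_fun, ← Nat.card_eq_fintype_card]
  rfl

end Cfsg.Agent.Lib.Helper67.Elus
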