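/-
Piece CP of helper67's second farm (S5950 + S5959) (by helper8).
-/
import Cfsg.Agent.Lib.Helper67.Elus.JDefs

set_option autoImplicit false

namespace Cfsg.Agent.Lib.Helper67.Elus

variable {F : Type*} [Field F] {V : Type*} [AddCommGroup V] [Module F V]

theorem card_compl_CP [Fintype F] {n m : ℕ} (U : Submodule F (Fin n → F))
    (hU : Module.finrank F U = m) :
    Nat.card {W : Submodule F (Fin n → F) // IsCompl U W} = Fintype.card F ^ (m * (n - m)) := by
  obtain ⟨W0, h0⟩ := Submodule.exists_isCompl U
  let e2 : {f : (Fin n → F) →ₗ[F] U // ∀ x : U, f x = x} ≃ (W0 →ₗ[F] U) :=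
    { toFun := fun f => f.1 ∘ₗ W0.subtype
      invFun := fun g => ⟨LinearMap.ofIsCompl h0 LinearMap.id g, fun x => by simp⟩
      left_inv := fun f => by
        apply Subtype.ext
        apply LinearMap.ofIsCompl_eq
        · intro u; exact (f.2 u).symm
        · intro u; rfl
      right_inv := fun g => by
        apply LinearMap.ext
        intro w
        simp }
  rw [Nat.card_congr (U.isComplEquivProj.trans e2), Module.natCard_eq_pow_finrank (K := F),
    Module.finrank_linearMap, Nat.card_eq_fintype_card, hU]
  have h1 := Submodule.finrank_add_eq_of_isCompl h0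
  rw [Module.finrank_fin_fun, hU] at h1
  have h2 : Module.finrank F W0 = n - m := by omega
  rw [h2, mul_comm]

theorem card_pairs [Fintype F] (n m : ℕ) (hm : m ≤ n) :
    Nat.card {P : Submodule F (Fin n → F) × Submodule F (Fin n → F) //
        IsCompl P.1 P.2 ∧ Module.finrank F ↥P.1 = m} =
      cnt F n m * Fintype.card F ^ (m * (n - m)) := by
  classical
  let e : {P : Submodule F (Fin n → F) × Submodule F (Fin n → F) //
        IsCompl P.1 P.2 ∧ Module.finrank F ↥P.1 = m} ≃
      Σ U : {U : Submodule F (Fin n → F) // Module.finrank F U = m},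
        {W : Submodule F (Fin n → F) // IsCompl U.1 W} :=
    { toFun := fun P => ⟨⟨P.1.1, P.2.2⟩, ⟨P.1.2, P.2.1⟩⟩
      invFun := fun x => ⟨(x.1.1, x.2.1), x.2.2, x.1.2⟩
      left_inv := fun P => rfl
      right_inv := fun x => rfl }
  have : Finite (Submodule F (Fin n → F)) := Finite.of_injective _ SetLike.coe_injective
  have := Fintype.ofFinite {U : Submodule F (Fin n → F) // Module.finrank F U = m}
  rw [Nat.card_congr e, Nat.card_sigma,
    Finset.sum_congr rfl (fun U _ => card_compl_CP U.1 U.2), Finset.sum_const, Finset.card_univ,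
    smul_eq_mul, cnt, Nat.card_eq_fintype_card]

end Cfsg.Agent.Lib.Helper67.Elus
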