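import Cfsg.Agent.Lib.Helper67.Elus.DDefs

set_option autoImplicit false

namespace Cfsg.Agent.Lib.Helper67.Elus

variable {F : Type*} [Field F] {V : Type*} [AddCommGroup V] [Module F V]

/-- [D2] -/
theorem stab_of_family {J : Type*} [Fintype J] {T : Module.End F V} {a t : ℕ}
    (hJ : Fintype.card J = t) (D : J → Submodule F V) (hdim : ∀ j, Module.finrank F (D j) = a)
    (hind : iSupIndep D) (htop : iSup D = ⊤) (σ : Equiv.Perm J)
    (hσ : ∀ j, (D j).map T = D (σ j)) : Stab T a t := by
  classical
  let e : J ≃ Fin t := Fintype.equivFinOfCardEq hJ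
  refine ⟨D ∘ e.symm, fun j => hdim _, hind.comp e.symm.injective, ?_, e.permCongr σ, ?_⟩
  · rw [← htop]
    exact e.symm.iSup_comp (g := D)
  · intro j
    simp only [Function.comp_apply, Equiv.permCongr_apply, Equiv.symm_apply_apply]
    exact hσ _

end Cfsg.Agent.Lib.Helper67.Elus
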