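import Cfsg.Agent.Lib.Helper67.Elus.D1
import Cfsg.Agent.Lib.Helper67.Elus.D2

set_option autoImplicit false

/-! helper67's farm 3 for S5958, piece D3 (helper12): a decomposition out of cyclic translates
and invariant subspaces. -/

namespace Cfsg.Agent.Lib.Helper67.Elus

variable {F : Type*} [Field F] {V : Type*} [AddCommGroup V] [Module F V]

theorem map_pow_mod_D3 {T : Module.End F V} {r : ℕ} {z : F}
    (hz : z ≠ 0) (hT : T ^ r = z • 1) (W : Submodule F V) (m : ℕ) :
    W.map (T ^ m) = W.map (T ^ (m % r)) := by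
  have h : T ^ m = (z ^ (m / r)) • T ^ (m % r) := by
    conv_lhs => rw [← Nat.mod_add_div m r]
    rw [pow_add, pow_mul, hT, smul_pow, one_pow, mul_smul_comm, mul_one]
  rw [h, Submodule.map_smul _ _ _ (pow_ne_zero _ hz)]

theorem injective_of_pow_D3 {T : Module.End F V} {r : ℕ} (hr : 0 < r) {z : F}
    (hz : z ≠ 0) (hT : T ^ r = z • 1) : Function.Injective T := by
  intro x y hxy
  have h : (T ^ r) x = (T ^ r) y := by
    obtain ⟨k, rfl⟩ : ∃ k, r = k + 1 := ⟨r - 1, by omega⟩
    rw [pow_succ, Module.End.mul_apply, Module.End.mul_apply, hxy]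
  rw [hT] at h
  simpa [hz] using h

/-- [D3] -/
theorem stab_of_cyclic [FiniteDimensional F V] {T : Module.End F V} {r : ℕ} (hr : 0 < r) {z : F}
    (hz : z ≠ 0) (hT : T ^ r = z • 1) {K L : Type*} [Fintype K] [Fintype L]
    (U : K → Submodule F V) (U' : L → Submodule F V) {a t : ℕ}
    (hU : ∀ k, Module.finrank F (U k) ≤ a) (hU' : ∀ l, Module.finrank F (U' l) ≤ a)
    (hinv : ∀ l, Inv T (U' l))
    (htop : (⨆ k, ⨆ i : Fin r, (U k).map (T ^ (i : ℕ))) ⊔ (⨆ l, U' l) = ⊤)
    (hV : Module.finrank F V = a * t) (ht : Fintype.card K * r + Fintype.card L = t) :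
    Stab T a t := by
  classical
  have : NeZero r := ⟨hr.ne'⟩
  let D : (K × Fin r) ⊕ L → Submodule F V :=
    Sum.elim (fun p => (U p.1).map (T ^ (p.2 : ℕ))) U'
  have hcard : Fintype.card ((K × Fin r) ⊕ L) = t := by
    rw [Fintype.card_sum, Fintype.card_prod, Fintype.card_fin, ht]
  have hDtop : iSup D = ⊤ := by
    rw [iSup_sum, iSup_prod]
    exact htop
  have hDle : ∀ j, Module.finrank F (D j) ≤ a := by
    rintro (⟨k, i⟩ | l)
    · exact (Submodule.finrank_map_le _ _).trans (hU k)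
    · exact hU' l
  obtain ⟨hind, hdim⟩ := indep_of_finrank_le D a hDtop hDle (by rw [hV, hcard])
  have hinj := injective_of_pow_D3 hr hz hT
  refine stab_of_family hcard D hdim hind hDtop
    (Equiv.sumCongr (Equiv.prodCongr (Equiv.refl K) (Equiv.addRight (1 : Fin r))) (Equiv.refl L)) ?_
  rintro (⟨k, i⟩ | l)
  · change ((U k).map (T ^ (i : ℕ))).map T = (U k).map (T ^ ((i + 1 : Fin r) : ℕ))
    rw [← Submodule.map_comp, ← Module.End.mul_eq_comp, ← pow_succ', map_pow_mod_D3 hz hT,
      Fin.val_add, Fin.val_one', Nat.add_mod_mod]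
  · change (U' l).map T = U' l
    apply Submodule.eq_of_le_of_finrank_eq
    · rintro _ ⟨w, hw, rfl⟩
      exact hinv l w hw
    · exact (LinearEquiv.finrank_eq (Submodule.equivMapOfInjective T hinj (U' l))).symm

end Cfsg.Agent.Lib.Helper67.Elus
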