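/-
helper67: row S5958 (elements of odd prime order `r ≠ p` of SL_n(q) modulo scalars and
decompositions of `F^n` into `t` subspaces of dimension `a`).  Shared vocabulary.
-/
import Cfsg.Agent.Lib.Helper67.Elus.Defs

set_option autoImplicit false

namespace Cfsg.Agent.Lib.Helper67.Elus

/-- `T` permutes the members of some decomposition of `V` into `t` subspaces of dimension `a` -/
def Stab {F : Type*} [Field F] {V : Type*} [AddCommGroup V] [Module F V] (T : Module.End F V)
    (a t : ℕ) : Prop :=
  ∃ D : Fin t → Submodule F V, (∀ j, Module.finrank F (D j) = a) ∧ iSupIndep D ∧ iSup D = ⊤ ∧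
    ∃ σ : Equiv.Perm (Fin t), ∀ j, (D j).map T = D (σ j)

end Cfsg.Agent.Lib.Helper67.Elus
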