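/-
Piece GEN of helper67's third farm (S5958) (by helper89).
-/
import Cfsg.Agent.Lib.Helper67.Elus.DDefs

set_option autoImplicit false

namespace Cfsg.Agent.Lib.Helper67.Elus

variable {F : Type*} [Field F] {V : Type*} [AddCommGroup V] [Module F V]

/-- the cyclic subspace generated by `v` -/
def cycGEN (T : Module.End F V) (r : ℕ) (v : V) : Submodule F V :=
  ⨆ i : Fin r, Submodule.span F {(T ^ (i : ℕ)) v}

theorem mem_cycGEN (T : Module.End F V) {r : ℕ} (hr : 0 < r) (v : V) : v ∈ cycGEN T r v := by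
  apply Submodule.mem_iSup_of_mem (⟨0, hr⟩ : Fin r)
  apply Submodule.subset_span
  simp

theorem inv_cycGEN {T : Module.End F V} {r : ℕ} (hr : 0 < r) {z : F} (hT : T ^ r = z • 1)
    (v : V) : Inv T (cycGEN T r v) := by
  have h1 : (cycGEN T r v).map T ≤ cycGEN T r v := by
    unfold cycGEN
    rw [Submodule.map_iSup]
    apply iSup_le
    intro i
    rw [Submodule.map_span, Set.image_singleton, Submodule.span_singleton_le_iff_mem]
    have e1 : T ((T ^ (i : ℕ)) v) = (T ^ ((i : ℕ) + 1)) v := by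
      rw [pow_succ', Module.End.mul_apply]
    rw [e1]
    by_cases hi : (i : ℕ) + 1 < r
    · apply Submodule.mem_iSup_of_mem (⟨(i : ℕ) + 1, hi⟩ : Fin r)
      exact Submodule.subset_span rfl
    · have hi' : (i : ℕ) + 1 = r := by have := i.2; omega
      rw [hi', hT]
      apply Submodule.mem_iSup_of_mem (⟨0, hr⟩ : Fin r)
      have : (z • (1 : Module.End F V)) v = z • (T ^ ((⟨0, hr⟩ : Fin r) : ℕ)) v := by simp
      rw [this]
      exact Submodule.smul_mem _ _ (Submodule.subset_span rfl)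
  intro w hw
  exact h1 (Submodule.mem_map_of_mem hw)

theorem cycGEN_le {T : Module.End F V} {r : ℕ} {B : Submodule F V} (hB : Inv T B) {v : V}
    (hv : v ∈ B) : cycGEN T r v ≤ B := by
  have h1 : ∀ i : ℕ, (T ^ i) v ∈ B := by
    intro i
    induction i with
    | zero => simpa using hv
    | succ i ih =>
      rw [pow_succ', Module.End.mul_apply]
      exact hB _ ih
  apply iSup_le
  intro i
  rw [Submodule.span_singleton_le_iff_mem]
  exact h1 i

theorem inv_sup_GEN {T : Module.End F V} {X Y : Submodule F V} (hX : Inv T X) (hY : Inv T Y) :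
    Inv T (X ⊔ Y) := by
  intro w hw
  obtain ⟨x, hx, y, hy, rfl⟩ := Submodule.mem_sup.1 hw
  rw [map_add]
  exact Submodule.add_mem _ (Submodule.mem_sup_left (hX x hx)) (Submodule.mem_sup_right (hY y hy))

theorem exists_cyclic_gens_aux [FiniteDimensional F V] {T : Module.End F V} {r : ℕ} (hr : 0 < r)
    {z : F} (hT : T ^ r = z • 1) {d : ℕ} {B : Submodule F V} (hB : Inv T B)
    (hdvd : ∀ W : Submodule F V, W ≤ B → Inv T W → d ∣ Module.finrank F W) (m : ℕ) :
    ∀ Y : Submodule F V, Y ≤ B → Inv T Y → Module.finrank F B ≤ Module.finrank F Y + d * m →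
    ∃ v : Fin m → V, (∀ k, v k ∈ B) ∧ B ≤ Y ⊔ ⨆ k, cycGEN T r (v k) := by
  induction m with
  | zero =>
    intro Y hYB _ hfin
    have hY : Y = B := Submodule.eq_of_le_of_finrank_le hYB (by simpa using hfin)
    exact ⟨Fin.elim0, fun k => k.elim0, by rw [hY]; exact le_sup_left⟩
  | succ m ih =>
    intro Y hYB hYinv hfin
    by_cases hY : Y = B
    · exact ⟨fun _ => 0, fun _ => B.zero_mem, by rw [hY]; exact le_sup_left⟩
    obtain ⟨v0, hv0B, hv0Y⟩ := SetLike.exists_of_lt (lt_of_le_of_ne hYB hY)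
    have hY'B : Y ⊔ cycGEN T r v0 ≤ B := sup_le hYB (cycGEN_le hB hv0B)
    have hY'inv : Inv T (Y ⊔ cycGEN T r v0) := inv_sup_GEN hYinv (inv_cycGEN hr hT v0)
    have hlt : Y < Y ⊔ cycGEN T r v0 := by
      refine lt_of_le_of_ne le_sup_left ?_
      intro h
      apply hv0Y
      rw [h]
      exact Submodule.mem_sup_right (mem_cycGEN T hr v0)
    have hflt := Submodule.finrank_lt_finrank_of_lt hlt
    have hd1 := hdvd Y hYB hYinv
    have hd2 := hdvd _ hY'B hY'inv
    have hge : Module.finrank F Y + d ≤ Module.finrank F (Y ⊔ cycGEN T r v0 : Submodule F V) := by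
      have h1 := Nat.le_of_dvd (Nat.sub_pos_of_lt hflt) (Nat.dvd_sub hd2 hd1)
      omega
    have hfin' : Module.finrank F B
        ≤ Module.finrank F (Y ⊔ cycGEN T r v0 : Submodule F V) + d * m := by
      rw [Nat.mul_succ] at hfin
      omega
    obtain ⟨v', hv'B, hv'⟩ := ih _ hY'B hY'inv hfin'
    refine ⟨Fin.cons v0 v', ?_, ?_⟩
    · intro k
      refine Fin.cases ?_ ?_ k
      · simpa using hv0B
      · intro k'
        simpa using hv'B k'
    · refine hv'.trans (sup_le (sup_le le_sup_left ?_) ?_)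
      · refine le_sup_of_le_right (le_iSup_of_le 0 ?_)
        simp
      · apply iSup_le
        intro k
        refine le_sup_of_le_right (le_iSup_of_le k.succ ?_)
        simp

theorem exists_cyclic_gens [FiniteDimensional F V] {T : Module.End F V} {r : ℕ} (hr : 0 < r)
    {z : F} (hT : T ^ r = z • 1) {d : ℕ} {B : Submodule F V} (hB : Inv T B)
    (hdvd : ∀ W : Submodule F V, W ≤ B → Inv T W → d ∣ Module.finrank F W) (m : ℕ)
    (hm : Module.finrank F B ≤ d * m) :
    ∃ v : Fin m → V, (∀ k, v k ∈ B) ∧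
      B ≤ ⨆ k, ⨆ i : Fin r, Submodule.span F {(T ^ (i : ℕ)) (v k)} := by
  obtain ⟨v, hv, hle⟩ := exists_cyclic_gens_aux hr hT hB hdvd m ⊥ bot_le
    (fun w hw => by
      rw [Submodule.mem_bot] at hw
      rw [hw, map_zero]
      exact Submodule.zero_mem _)
    (by rw [finrank_bot, zero_add]; exact hm)
  rw [bot_sup_eq] at hle
  exact ⟨v, hv, hle⟩

end Cfsg.Agent.Lib.Helper67.Elus
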