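import Cfsg.Agent.Lib.Helper67.Elus.DDefs
import Cfsg.Agent.Lib.Helper67.Elus.M2a
import Cfsg.Agent.Lib.Helper67.Elus.GEN
import Cfsg.Agent.Lib.Helper67.Elus.D3

set_option autoImplicit false

namespace Cfsg.Agent.Lib.Helper67.Elus

variable {F : Type*} [Field F] {V : Type*} [AddCommGroup V] [Module F V]

/-- [D11] -/
theorem stab_of_not_pow_t [FiniteDimensional F V] {T : Module.End F V} {r : ℕ} [Fact r.Prime]
    {z : F} (hT : T ^ r = z • 1) (hz : ∀ d : F, d ^ r ≠ z) {a t : ℕ}
    (hV : Module.finrank F V = a * t) (hrt : r ∣ t) : Stab T a t := by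
  have hrp : r.Prime := Fact.out
  have hz0 : z ≠ 0 := by
    intro h
    exact hz 0 (by rw [h, zero_pow hrp.ne_zero])
  obtain ⟨t', rfl⟩ := hrt
  have hB : Inv T (⊤ : Submodule F V) := fun _ _ => Submodule.mem_top
  obtain ⟨v, -, hv⟩ := exists_cyclic_gens (T := T) hrp.pos hT (d := r) hB
    (fun W _ hW => dvd_finrank_of_not_pow hT hz hW) (t' * a)
    (by rw [finrank_top, hV]; exact le_of_eq (by ring))
  let U : Fin t' → Submodule F V := fun k =>
    Submodule.span F (Set.range fun x : Fin a => v (finProdFinEquiv (k, x)))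
  refine stab_of_cyclic hrp.pos hz0 hT U (fun _ : Fin 0 => ⊥) (a := a) ?_ ?_ ?_ ?_ hV ?_
  · intro k
    have := finrank_range_le_card (R := F) (fun x : Fin a => v (finProdFinEquiv (k, x)))
    simpa [Set.finrank] using this
  · intro l; exact l.elim0
  · intro l; exact l.elim0
  · rw [eq_top_iff]
    refine hv.trans (le_sup_of_le_left ?_)
    refine iSup_le fun k => iSup_le fun i => ?_
    obtain ⟨⟨k1, x⟩, rfl⟩ := finProdFinEquiv.surjective k
    refine le_iSup_of_le k1 (le_iSup_of_le i ?_)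
    rw [Submodule.span_singleton_le_iff_mem]
    exact Submodule.mem_map_of_mem (Submodule.subset_span ⟨x, rfl⟩)
  · simp only [Fintype.card_fin]
    ring

end Cfsg.Agent.Lib.Helper67.Elus
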