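import Cfsg.Agent.Lib.Helper67.Elus.D3
import Cfsg.Agent.Lib.Helper67.Elus.GEN
import Cfsg.Agent.Lib.Helper67.Elus.S1
import Cfsg.Agent.Lib.Helper67.Elus.S2

set_option autoImplicit false

/-! helper67's farm 3 for S5958, piece D12 (helper12): a decomposition into lines. -/

namespace Cfsg.Agent.Lib.Helper67.Elus

variable {F : Type*} [Field F] {V : Type*} [AddCommGroup V] [Module F V]

theorem sum_pow_fixed_D12 {T : Module.End F V} {r : ℕ} (hT : T ^ r = 1) (x : V) :
    T (∑ i ∈ Finset.range r, (T ^ i) x) = ∑ i ∈ Finset.range r, (T ^ i) x := by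
  rw [map_sum]
  have h1 := Finset.sum_range_succ' (fun i => (T ^ i) x) r
  have h2 := Finset.sum_range_succ (fun i => (T ^ i) x) r
  rw [h2] at h1
  simp only [hT, pow_zero] at h1
  have h3 : ∀ i, T ((T ^ i) x) = (T ^ (i + 1)) x := fun i => by
    rw [pow_succ', Module.End.mul_apply]
  simp only [h3]
  exact (add_right_cancel h1).symm

theorem pow_mem_of_inv_D12 {T : Module.End F V} {B : Submodule F V} (hB : Inv T B) (i : ℕ)
    {x : V} (hx : x ∈ B) : (T ^ i) x ∈ B := by
  induction i with
  | zero => simpa using hx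
  | succ i ih =>
    rw [pow_succ', Module.End.mul_apply]
    exact hB _ ih

theorem pow_apply_of_fixed_D12 {T : Module.End F V} (i : ℕ) {x : V} (hx : T x = x) :
    (T ^ i) x = x := by
  induction i with
  | zero => simp
  | succ i ih => rw [pow_succ', Module.End.mul_apply, ih, hx]

theorem finrank_span_singleton_le_D12 (x : V) :
    Module.finrank F (Submodule.span F {x}) ≤ 1 := by
  by_cases hx : x = 0
  · subst hx
    rw [Submodule.span_zero_singleton, finrank_bot]
    exact Nat.zero_le 1
  · rw [finrank_span_singleton hx]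

theorem mem_Fx_iff_D12 {T : Module.End F V} (x : V) : x ∈ Fx T ↔ T x = x := by
  unfold Fx
  rw [LinearMap.mem_ker, LinearMap.sub_apply, Module.End.one_apply, sub_eq_zero]

/-- [D12] -/
theorem stab_lines [Fintype F] [FiniteDimensional F V] {T : Module.End F V} {r : ℕ}
    [Fact r.Prime] (hr : (r : F) ≠ 0) (hT : T ^ r = 1) (hc : oq F r = r - 1) (s : ℕ)
    (hV : Module.finrank F V = Module.finrank F (Fx T) + oq F r * s)
    (hs : s ≤ Module.finrank F (Fx T)) : Stab T 1 (Module.finrank F V) := by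
  classical
  have hp : r.Prime := Fact.out
  have hT1 : T ^ r = (1 : F) • 1 := by rw [hT, one_smul]
  have hFxInv : Inv T (Fx T) := by
    intro w hw
    rw [(mem_Fx_iff_D12 w).1 hw]
    exact hw
  obtain ⟨B, hB, hcompl⟩ := exists_inv_compl hT1 one_ne_zero hr hFxInv
  have hfrB : Module.finrank F B = oq F r * s := by
    have := Submodule.finrank_add_eq_of_isCompl hcompl
    omega
  have hBfix : ∀ w ∈ B, T w = w → w = 0 := by
    intro w hw hTw
    have : w ∈ Fx T ⊓ B := ⟨(mem_Fx_iff_D12 w).2 hTw, hw⟩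
    rw [hcompl.inf_eq_bot] at this
    exact (Submodule.mem_bot F).1 this
  obtain ⟨zz, hzzB, hzz⟩ := exists_cyclic_gens hp.pos hT1 (d := oq F r) hB
    (fun W hWB hW => oq_dvd_finrank hT hW (fun w hw => hBfix w (hWB hw))) s hfrB.le
  set e := Module.finrank F (Fx T) with he
  let l : Module.Basis (Fin e) F (Fx T) := Module.finBasisOfFinrankEq F (Fx T) rfl
  have hlfix : ∀ i, T (l i : V) = l i := fun i => (mem_Fx_iff_D12 _).1 (l i).2
  let U : Fin s → Submodule F V :=
    fun k => Submodule.span F {zz k + (l ⟨k, lt_of_lt_of_le k.2 hs⟩ : V)}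
  let U' : Fin (e - s) → Submodule F V :=
    fun i => Submodule.span F {(l ⟨s + i, by have := i.2; omega⟩ : V)}
  refine stab_of_cyclic hp.pos one_ne_zero hT1 U U' (a := 1)
    (fun k => finrank_span_singleton_le_D12 _) (fun i => finrank_span_singleton_le_D12 _)
    ?_ ?_ (one_mul _).symm ?_
  · intro i w hw
    obtain ⟨c, rfl⟩ := Submodule.mem_span_singleton.1 hw
    rw [map_smul, hlfix]
    exact hw
  · set X : Submodule F V := (⨆ k, ⨆ i : Fin r, (U k).map (T ^ (i : ℕ))) ⊔ (⨆ i, U' i) with hX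
    have hwX : ∀ (k : Fin s) (i : ℕ), i < r →
        (T ^ i) (zz k + (l ⟨k, lt_of_lt_of_le k.2 hs⟩ : V)) ∈ X := by
      intro k i hi
      have h1 : (U k).map (T ^ i) ≤ X :=
        le_sup_of_le_left (le_iSup_of_le k (le_iSup_of_le (⟨i, hi⟩ : Fin r) le_rfl))
      exact h1 (Submodule.mem_map_of_mem (Submodule.mem_span_singleton_self _))
    have hlX : ∀ k : Fin s, (l ⟨k, lt_of_lt_of_le k.2 hs⟩ : V) ∈ X := by
      intro k
      have h1 : ∑ i ∈ Finset.range r, (T ^ i) (zz k + (l ⟨k, lt_of_lt_of_le k.2 hs⟩ : V)) ∈ X :=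
        Submodule.sum_mem _ (fun i hi => hwX k i (Finset.mem_range.1 hi))
      have h2 : ∑ i ∈ Finset.range r, (T ^ i) (zz k) = 0 :=
        hBfix _ (Submodule.sum_mem _ (fun i _ => pow_mem_of_inv_D12 hB i (hzzB k)))
          (sum_pow_fixed_D12 hT _)
      have h3 : ∑ i ∈ Finset.range r, (T ^ i) (l ⟨k, lt_of_lt_of_le k.2 hs⟩ : V)
          = (r : F) • (l ⟨k, lt_of_lt_of_le k.2 hs⟩ : V) := by
        rw [Finset.sum_congr rfl (fun i _ => pow_apply_of_fixed_D12 i (hlfix _)),
          Finset.sum_const, Finset.card_range, Nat.cast_smul_eq_nsmul]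
      simp only [map_add, Finset.sum_add_distrib, h2, h3, zero_add] at h1
      exact (Submodule.smul_mem_iff _ hr).1 h1
    have hzX : ∀ (k : Fin s) (i : ℕ), i < r → (T ^ i) (zz k) ∈ X := by
      intro k i hi
      have h1 := hwX k i hi
      rw [map_add, pow_apply_of_fixed_D12 i (hlfix _)] at h1
      exact (Submodule.add_mem_iff_left _ (hlX k)).1 h1
    have hBX : B ≤ X := by
      refine hzz.trans (iSup_le fun k => iSup_le fun i => ?_)
      rw [Submodule.span_singleton_le_iff_mem]
      exact hzX k i i.2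
    have hFX : Fx T ≤ X := by
      have h := congrArg (Submodule.map (Fx T).subtype) l.span_eq
      rw [Submodule.map_span, Submodule.map_subtype_top, ← Set.range_comp] at h
      rw [← h, Submodule.span_le]
      rintro _ ⟨i, rfl⟩
      change (l i : V) ∈ X
      rcases Nat.lt_or_ge (i : ℕ) s with hi | hi
      · exact hlX ⟨i, hi⟩
      · have h1 : U' ⟨i - s, by have := i.2; omega⟩ ≤ X :=
          le_sup_of_le_right (le_iSup_of_le _ le_rfl)
        apply h1
        have h2 : (⟨s + (i - s), by have := i.2; omega⟩ : Fin e) = i := by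
          apply Fin.ext
          change s + ((i : ℕ) - s) = i
          omega
        change (l i : V) ∈ Submodule.span F {(l ⟨s + (i - s), _⟩ : V)}
        rw [h2]
        exact Submodule.mem_span_singleton_self _
    rw [eq_top_iff, ← hcompl.sup_eq_top]
    exact sup_le hFX hBX
  · rw [Fintype.card_fin, Fintype.card_fin, hV, hc]
    obtain ⟨r', rfl⟩ : ∃ r', r = r' + 1 := ⟨r - 1, by have := hp.pos; omega⟩
    rw [Nat.add_sub_cancel, mul_add, mul_one, mul_comm r' s]
    omega

end Cfsg.Agent.Lib.Helper67.Elus
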