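import Cfsg.Agent.Lib.Helper67.Elus.Defs

set_option autoImplicit false

namespace Cfsg.Agent.Lib.Helper67.Elus

variable {F : Type*} [Field F] {V : Type*} [AddCommGroup V] [Module F V]

theorem inv_step_S4a [FiniteDimensional F V] {T : Module.End F V} {d : ℕ} {B : Submodule F V}
    (hB : Inv T B) (hcompl : ∀ W : Submodule F V, Inv T W → ∃ W' : Submodule F V, Inv T W' ∧ IsCompl W W')
    (hsmall : ∀ W : Submodule F V, W ≤ B → Inv T W → W ≠ ⊥ →
      ∃ Z : Submodule F V, Z ≤ W ∧ Inv T Z ∧ Module.finrank F Z = d)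
    (hd : 0 < d) (Y : Submodule F V) (hYB : Y ≤ B) (hY : Inv T Y)
    (hfr : Module.finrank F Y + d ≤ Module.finrank F B) :
    ∃ Y' : Submodule F V, Y ≤ Y' ∧ Y' ≤ B ∧ Inv T Y' ∧
      Module.finrank F Y' = Module.finrank F Y + d := by
  obtain ⟨C, hC, hYC⟩ := hcompl Y hY
  have hX : Inv T (C ⊓ B) := fun w hw => ⟨hC w hw.1, hB w hw.2⟩
  have hne : C ⊓ B ≠ ⊥ := by
    intro h0
    have hBY : B = Y := by
      have h1 : Y ⊔ C ⊓ B = (Y ⊔ C) ⊓ B := (sup_inf_assoc_of_le C hYB).symm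
      rw [h0, sup_bot_eq, hYC.sup_eq_top, top_inf_eq] at h1
      exact h1.symm
    rw [hBY] at hfr
    omega
  obtain ⟨Z, hZX, hZ, hZd⟩ := hsmall _ inf_le_right hX hne
  refine ⟨Y ⊔ Z, le_sup_left, sup_le hYB (hZX.trans inf_le_right), ?_, ?_⟩
  · intro w hw
    obtain ⟨y, hy, z, hz, rfl⟩ := Submodule.mem_sup.mp hw
    rw [map_add]
    exact Submodule.add_mem_sup (hY y hy) (hZ z hz)
  · have hdisj : Y ⊓ Z = ⊥ := (hYC.disjoint.mono_right (hZX.trans inf_le_left)).eq_bot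
    have := Submodule.finrank_sup_add_finrank_inf_eq Y Z
    rw [hdisj, finrank_bot] at this
    omega

theorem inv_iter_S4a [FiniteDimensional F V] {T : Module.End F V} {d : ℕ} {B : Submodule F V}
    (hB : Inv T B) (hcompl : ∀ W : Submodule F V, Inv T W → ∃ W' : Submodule F V, Inv T W' ∧ IsCompl W W')
    (hsmall : ∀ W : Submodule F V, W ≤ B → Inv T W → W ≠ ⊥ →
      ∃ Z : Submodule F V, Z ≤ W ∧ Inv T Z ∧ Module.finrank F Z = d)
    (hd : 0 < d) (k : ℕ) (Y : Submodule F V) (hYB : Y ≤ B) (hY : Inv T Y)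
    (hfr : Module.finrank F Y + d * k ≤ Module.finrank F B) :
    ∃ Y' : Submodule F V, Y ≤ Y' ∧ Y' ≤ B ∧ Inv T Y' ∧
      Module.finrank F Y' = Module.finrank F Y + d * k := by
  induction k with
  | zero => exact ⟨Y, le_rfl, hYB, hY, by simp⟩
  | succ k ih =>
    rw [Nat.mul_succ] at hfr
    obtain ⟨Y1, h1, h2, h3, h4⟩ := ih (by omega)
    obtain ⟨Y2, g1, g2, g3, g4⟩ := inv_step_S4a hB hcompl hsmall hd Y1 h2 h3 (by omega)
    exact ⟨Y2, h1.trans g1, g2, g3, by rw [g4, h4, Nat.mul_succ]; omega⟩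

/-- [S4a] -/
theorem exists_inv_chain [FiniteDimensional F V] {T : Module.End F V} {d : ℕ} {B : Submodule F V}
    (hB : Inv T B) (hcompl : ∀ W : Submodule F V, Inv T W → ∃ W' : Submodule F V, Inv T W' ∧ IsCompl W W')
    (hsmall : ∀ W : Submodule F V, W ≤ B → Inv T W → W ≠ ⊥ →
      ∃ Z : Submodule F V, Z ≤ W ∧ Inv T Z ∧ Module.finrank F Z = d)
    (a b : ℕ) (hab : a ≤ b) (hb : d * b ≤ Module.finrank F B) :
    ∃ U W : Submodule F V, U ≤ W ∧ W ≤ B ∧ Inv T U ∧ Inv T W ∧ Module.finrank F U = d * a ∧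
      Module.finrank F W = d * b := by
  have hbot : Inv T (⊥ : Submodule F V) := by
    intro w hw
    rw [Submodule.mem_bot] at hw
    rw [hw, map_zero]
    exact Submodule.zero_mem _
  rcases Nat.eq_zero_or_pos d with rfl | hd
  · exact ⟨⊥, ⊥, le_rfl, bot_le, hbot, hbot, by simp, by simp⟩
  have hda : d * a ≤ d * b := Nat.mul_le_mul_left d hab
  obtain ⟨U, -, hUB, hU, hUd⟩ := inv_iter_S4a hB hcompl hsmall hd a ⊥ bot_le hbot
    (by rw [finrank_bot]; omega)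
  rw [finrank_bot, zero_add] at hUd
  have hsplit : d * a + d * (b - a) = d * b := by
    rw [← Nat.mul_add, Nat.add_sub_cancel' hab]
  obtain ⟨W, hUW, hWB, hW, hWd⟩ := inv_iter_S4a hB hcompl hsmall hd (b - a) U hUB hU
    (by rw [hUd, hsplit]; exact hb)
  exact ⟨U, W, hUW, hWB, hU, hW, hUd, by rw [hWd, hUd, hsplit]⟩

end Cfsg.Agent.Lib.Helper67.Elus
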