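import Cfsg.Agent.Lib.Helper67.Elus.DDefs
import Cfsg.Agent.Lib.Helper67.Elus.S4a

set_option autoImplicit false

namespace Cfsg.Agent.Lib.Helper67.Elus

variable {F : Type*} [Field F] {V : Type*} [AddCommGroup V] [Module F V]

theorem inv_bot_D4 (T : Module.End F V) : Inv T (⊥ : Submodule F V) := by
  intro w hw
  rw [Submodule.mem_bot] at hw
  rw [hw, map_zero]
  exact Submodule.zero_mem _

/-- [D4] -/
theorem exists_inv_chain_seq [FiniteDimensional F V] {T : Module.End F V} {d : ℕ}
    {B : Submodule F V} (hB : Inv T B)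
    (hcompl : ∀ W : Submodule F V, Inv T W → ∃ W' : Submodule F V, Inv T W' ∧ IsCompl W W')
    (hsmall : ∀ W : Submodule F V, W ≤ B → Inv T W → W ≠ ⊥ →
      ∃ Z : Submodule F V, Z ≤ W ∧ Inv T Z ∧ Module.finrank F Z = d)
    (m : ℕ) (hm : d * m ≤ Module.finrank F B) :
    ∃ W : ℕ → Submodule F V, Monotone W ∧ (∀ i, W i ≤ B) ∧ (∀ i, Inv T (W i)) ∧
      ∀ i ≤ m, Module.finrank F (W i) = d * i := by
  rcases Nat.eq_zero_or_pos d with rfl | hd
  · exact ⟨fun _ => ⊥, monotone_const, fun _ => bot_le, fun _ => inv_bot_D4 T, fun i _ => by simp⟩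
  induction m with
  | zero =>
    refine ⟨fun _ => ⊥, monotone_const, fun _ => bot_le, fun _ => inv_bot_D4 T, fun i hi => ?_⟩
    have : i = 0 := by omega
    subst this
    simp
  | succ m ih =>
    rw [Nat.mul_succ] at hm
    obtain ⟨W, hmono, hWB, hWinv, hWd⟩ := ih (by omega)
    obtain ⟨Y', hY1, hY2, hY3, hY4⟩ := inv_step_S4a hB hcompl hsmall hd (W m) (hWB m) (hWinv m)
      (by rw [hWd m le_rfl]; exact hm)
    refine ⟨fun i => if i ≤ m then W i else Y', ?_, ?_, ?_, ?_⟩
    · intro i j hij
      show (if i ≤ m then W i else Y') ≤ (if j ≤ m then W j else Y')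
      by_cases hi : i ≤ m
      · by_cases hj : j ≤ m
        · rw [if_pos hi, if_pos hj]
          exact hmono hij
        · rw [if_pos hi, if_neg hj]
          exact (hmono hi).trans hY1
      · have hj : ¬ j ≤ m := by omega
        rw [if_neg hi, if_neg hj]
    · intro i
      show (if i ≤ m then W i else Y') ≤ B
      split_ifs
      · exact hWB i
      · exact hY2
    · intro i
      show Inv T (if i ≤ m then W i else Y')
      split_ifs
      · exact hWinv i
      · exact hY3
    · intro i hi
      show Module.finrank F ↥(if i ≤ m then W i else Y') = d * i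
      by_cases hi' : i ≤ m
      · rw [if_pos hi']
        exact hWd i hi'
      · have : i = m + 1 := by omega
        subst this
        rw [if_neg hi', hY4, hWd m le_rfl, Nat.mul_succ]

end Cfsg.Agent.Lib.Helper67.Elus
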