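import Cfsg.Agent.Lib.Helper67.Elus.DDefs
import Cfsg.Agent.Lib.Helper67.Elus.D1

set_option autoImplicit false

namespace Cfsg.Agent.Lib.Helper67.Elus

variable {F : Type*} [Field F] {V : Type*} [AddCommGroup V] [Module F V]

/-- [D5] -/
theorem stab_of_flag [FiniteDimensional F V] {T : Module.End F V} (hinj : Function.Injective T)
    (hcompl : ∀ W : Submodule F V, Inv T W → ∃ W' : Submodule F V, Inv T W' ∧ IsCompl W W')
    {a t : ℕ} (W : ℕ → Submodule F V) (hmono : Monotone W) (hinv : ∀ i, Inv T (W i))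
    (hdim : ∀ i ≤ t, Module.finrank F (W i) = a * i) (hV : Module.finrank F V = a * t) :
    Stab T a t := by
  choose C hCinv hC using fun i => hcompl (W i) (hinv i)
  let D : Fin t → Submodule F V := fun j => C j ⊓ W (j + 1)
  have hsup : ∀ j : Fin t, W j ⊔ D j = W (j + 1) := by
    intro j
    have h1 : W j ⊔ C j ⊓ W (j + 1) = (W j ⊔ C j) ⊓ W (j + 1) :=
      (sup_inf_assoc_of_le (C j) (hmono (Nat.le_succ j))).symm
    rw [(hC j).sup_eq_top, top_inf_eq] at h1
    exact h1
  have hdisj : ∀ j : Fin t, W j ⊓ D j = ⊥ := fun j =>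
    ((hC j).disjoint.mono_right inf_le_left).eq_bot
  have hDd : ∀ j : Fin t, Module.finrank F (D j) = a := by
    intro j
    have := Submodule.finrank_sup_add_finrank_inf_eq (W j) (D j)
    rw [hsup, hdisj, finrank_bot, hdim _ (by omega : (j : ℕ) + 1 ≤ t),
      hdim _ (by omega : (j : ℕ) ≤ t), Nat.mul_succ] at this
    omega
  have hle : ∀ i, i ≤ t → W i ≤ iSup D := by
    intro i
    induction i with
    | zero =>
      intro _
      have h0 : W 0 = ⊥ := by
        rw [← Submodule.finrank_eq_zero, hdim 0 (Nat.zero_le t), mul_zero]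
      rw [h0]
      exact bot_le
    | succ i ih =>
      intro hi
      have := hsup ⟨i, by omega⟩
      rw [← this]
      exact sup_le (ih (by omega)) (le_iSup D ⟨i, by omega⟩)
  have htop : iSup D = ⊤ := by
    have h1 : W t = ⊤ := Submodule.eq_top_of_finrank_eq (by rw [hdim t le_rfl, hV])
    exact top_le_iff.1 (h1 ▸ hle t le_rfl)
  obtain ⟨hind, -⟩ := indep_of_finrank_le D a htop (fun j => (hDd j).le)
    (by rw [hV, Fintype.card_fin])
  refine ⟨D, hDd, hind, htop, 1, fun j => ?_⟩
  rw [Equiv.Perm.one_apply]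
  apply Submodule.eq_of_le_of_finrank_eq
  · rintro _ ⟨w, hw, rfl⟩
    exact ⟨hCinv j w hw.1, hinv _ w hw.2⟩
  · exact (Submodule.equivMapOfInjective T hinj (D j)).finrank_eq.symm

end Cfsg.Agent.Lib.Helper67.Elus
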