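/-
helper51 for helper67's farm (rows S5949, S5951): piece S3.
-/
import Cfsg.Agent.Lib.Helper67.Elus.CYC
import Cfsg.Agent.Lib.Helper67.Elus.S2

set_option autoImplicit false

namespace Cfsg.Agent.Lib.Helper67.Elus

variable {F : Type*} [Field F] {V : Type*} [AddCommGroup V] [Module F V]

open Polynomial

theorem pow_mem_S3 {T : Module.End F V} {W : Submodule F V} (hW : Inv T W) {w : V} (hw : w ∈ W)
    (n : ℕ) : (T ^ n) w ∈ W := by
  induction n with
  | zero => simpa using hw
  | succ n ih =>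
    rw [pow_succ', Module.End.mul_apply]
    exact hW _ ih

theorem aeval_mem_S3 {T : Module.End F V} {W : Submodule F V} (hW : Inv T W) {w : V} (hw : w ∈ W)
    (g : F[X]) : (aeval T g) w ∈ W := by
  induction g using Polynomial.induction_on' with
  | add p q hp hq =>
    rw [map_add, LinearMap.add_apply]
    exact W.add_mem hp hq
  | monomial n a =>
    rw [aeval_monomial]
    simp only [Module.End.mul_apply, Module.algebraMap_end_apply]
    exact W.smul_mem _ (pow_mem_S3 hW hw n)

theorem exists_irr_S3 {T : Module.End F V} {W : Submodule F V} (hW : Inv T W) :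
    ∀ (d : ℕ) (P : F[X]), P.natDegree ≤ d → P ≠ 0 → ∀ w ∈ W, w ≠ 0 → (aeval T P) w = 0 →
      ∃ h : F[X], Irreducible h ∧ h ∣ P ∧ ∃ w' ∈ W, w' ≠ 0 ∧ (aeval T h) w' = 0 := by
  intro d
  induction d with
  | zero =>
    intro P hd hP w _ hw0 h0
    exfalso
    have hPC : P = C (P.coeff 0) := eq_C_of_natDegree_le_zero hd
    have hc : P.coeff 0 ≠ 0 := by
      intro h
      rw [h, map_zero] at hPC
      exact hP hPC
    rw [hPC, aeval_C, Module.algebraMap_end_apply] at h0
    exact hw0 ((smul_eq_zero.1 h0).resolve_left hc)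
  | succ d ih =>
    intro P hd hP w hw hw0 h0
    have hnu : ¬ IsUnit P := by
      intro hu
      obtain ⟨a, ha, rfl⟩ := Polynomial.isUnit_iff.1 hu
      rw [aeval_C, Module.algebraMap_end_apply] at h0
      exact hw0 ((smul_eq_zero.1 h0).resolve_left ha.ne_zero)
    obtain ⟨h, hirr, R, rfl⟩ := WfDvdMonoid.exists_irreducible_factor hnu hP
    have hR : R ≠ 0 := right_ne_zero_of_mul hP
    have hh : h ≠ 0 := left_ne_zero_of_mul hP
    by_cases hRw : (aeval T R) w = 0
    · have hdeg : R.natDegree ≤ d := by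
        have h1 := natDegree_mul hh hR
        have h2 := hirr.natDegree_pos
        omega
      obtain ⟨h', hirr', hdvd, w', hw', hw'0, hz⟩ := ih R hdeg hR w hw hw0 hRw
      exact ⟨h', hirr', hdvd.mul_left _, w', hw', hw'0, hz⟩
    · refine ⟨h, hirr, dvd_mul_right _ _, (aeval T R) w, aeval_mem_S3 hW hw R, hRw, ?_⟩
      rw [← Module.End.mul_apply, ← map_mul]
      exact h0

theorem exists_inv_finrank_eq_oq [Fintype F] [FiniteDimensional F V] {T : Module.End F V} {r : ℕ}
    [Fact r.Prime] (hr : (r : F) ≠ 0) (hT : T ^ r = 1) {W : Submodule F V} (hW : Inv T W)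
    (hne : W ≠ ⊥) (hfix : ∀ w ∈ W, T w = w → w = 0) :
    ∃ Z : Submodule F V, Z ≤ W ∧ Inv T Z ∧ Module.finrank F Z = oq F r := by
  classical
  obtain ⟨w, hw, hw0⟩ := Submodule.exists_mem_ne_zero_of_ne_bot hne
  -- the cyclotomic polynomial kills `w`
  have hΦ : (aeval T (cyclotomic r F)) w = 0 := by
    apply hfix _ (aeval_mem_S3 hW hw _)
    have h1 : (aeval T ((X - 1) * cyclotomic r F)) w = 0 := by
      rw [mul_comm, cyclotomic_prime_mul_X_sub_one]
      simp [hT]
    rw [map_mul, Module.End.mul_apply] at h1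
    simp only [map_sub, aeval_X, map_one, LinearMap.sub_apply, Module.End.one_apply] at h1
    exact sub_eq_zero.1 h1
  obtain ⟨h, hirr, hdvd, w', hw', hw'0, hz⟩ :=
    exists_irr_S3 hW _ (cyclotomic r F) le_rfl (cyclotomic_ne_zero r F) w hw hw0 hΦ
  have hdeg : h.natDegree = oq F r := natDegree_eq_oq hr hdvd hirr
  have hh0 : h ≠ 0 := hirr.ne_zero
  set hm : F[X] := h * C (leadingCoeff h)⁻¹ with hmdef
  have hmon : hm.Monic := monic_mul_leadingCoeff_inv hh0
  have hmdeg : hm.natDegree = oq F r := by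
    rw [hmdef, natDegree_mul_leadingCoeff_inv _ hh0, hdeg]
  have hmz : (aeval T hm) w' = 0 := by
    rw [hmdef, mul_comm, map_mul, Module.End.mul_apply, hz, map_zero]
  -- the evaluation map
  let φ : F[X] →ₗ[F] V :=
    { toFun := fun g => (aeval T g) w'
      map_add' := fun a b => by simp
      map_smul' := fun a b => by simp }
  have hφ : ∀ g, φ g = (aeval T g) w' := fun _ => rfl
  have hmod : ∀ g : F[X], φ g = φ (g %ₘ hm) := by
    intro g
    conv_lhs => rw [← modByMonic_add_div g hm]
    rw [hφ, hφ, map_add, LinearMap.add_apply, mul_comm, map_mul, Module.End.mul_apply, hmz,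
      map_zero, add_zero]
  have hmodmem : ∀ g : F[X], g %ₘ hm ∈ degreeLT F (oq F r) := by
    intro g
    rw [mem_degreeLT]
    have h1 := degree_modByMonic_lt g hmon
    rwa [degree_eq_natDegree hmon.ne_zero, hmdeg] at h1
  refine ⟨(degreeLT F (oq F r)).map φ, ?_, ?_, ?_⟩
  · rintro _ ⟨g, -, rfl⟩
    exact aeval_mem_S3 hW hw' g
  · rintro _ ⟨g, -, rfl⟩
    have h1 : T (φ g) = φ (X * g) := by
      rw [hφ, hφ, map_mul, Module.End.mul_apply, aeval_X]
    rw [h1, hmod]
    exact ⟨_, hmodmem _, rfl⟩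
  · have hZW : (degreeLT F (oq F r)).map φ ≤ W := by
      rintro _ ⟨g, -, rfl⟩
      exact aeval_mem_S3 hW hw' g
    have hZinv : Inv T ((degreeLT F (oq F r)).map φ) := by
      rintro _ ⟨g, -, rfl⟩
      have h1 : T (φ g) = φ (X * g) := by
        rw [hφ, hφ, map_mul, Module.End.mul_apply, aeval_X]
      rw [h1, hmod]
      exact ⟨_, hmodmem _, rfl⟩
    have hdv : oq F r ∣ Module.finrank F ((degreeLT F (oq F r)).map φ) :=
      oq_dvd_finrank hT hZinv (fun z hz hTz => hfix z (hZW hz) hTz)
    have hle : Module.finrank F ((degreeLT F (oq F r)).map φ) ≤ oq F r := by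
      have hfr : Module.finrank F (degreeLT F (oq F r)) = oq F r := by
        rw [(degreeLTEquiv F (oq F r)).finrank_eq]
        simp
      have : Module.Finite F (degreeLT F (oq F r)) :=
        Module.Finite.equiv (degreeLTEquiv F (oq F r)).symm
      calc _ ≤ Module.finrank F (degreeLT F (oq F r)) := Submodule.finrank_map_le φ _
        _ = _ := hfr
    have hpos : 0 < Module.finrank F ((degreeLT F (oq F r)).map φ) := by
      rw [Module.finrank_pos_iff_exists_ne_zero]
      have hmem : w' ∈ (degreeLT F (oq F r)).map φ := by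
        have h1 : w' = φ 1 := by rw [hφ]; simp
        rw [h1, hmod]
        exact ⟨_, hmodmem _, rfl⟩
      exact ⟨⟨w', hmem⟩, fun h => hw'0 (congrArg Subtype.val h)⟩
    exact le_antisymm hle (Nat.le_of_dvd hpos hdv)

end Cfsg.Agent.Lib.Helper67.Elus
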