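import Cfsg.Agent.Lib.Helper67.Elus.DDefs
import Cfsg.Agent.Lib.Helper67.Elus.D4
import Cfsg.Agent.Lib.Helper67.Elus.S1
import Cfsg.Agent.Lib.Helper67.Elus.S3

set_option autoImplicit false

namespace Cfsg.Agent.Lib.Helper67.Elus

variable {F : Type*} [Field F] {V : Type*} [AddCommGroup V] [Module F V]

theorem mem_Fx_D6 {T : Module.End F V} {w : V} : w ∈ Fx T ↔ T w = w := by
  unfold Fx
  rw [LinearMap.mem_ker, LinearMap.sub_apply, Module.End.one_apply, sub_eq_zero]

theorem inv_sup_D6 {T : Module.End F V} {X Y : Submodule F V} (hX : Inv T X) (hY : Inv T Y) :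
    Inv T (X ⊔ Y) := by
  intro w hw
  obtain ⟨y, hy, z, hz, rfl⟩ := Submodule.mem_sup.mp hw
  rw [map_add]
  exact Submodule.add_mem_sup (hX y hy) (hY z hz)

/-- [D6] -/
theorem exists_inv_grid [Fintype F] [FiniteDimensional F V] {T : Module.End F V} {r : ℕ}
    [Fact r.Prime] (hr : (r : F) ≠ 0) (hT : T ^ r = 1) (s : ℕ)
    (hs : Module.finrank F V = Module.finrank F (Fx T) + oq F r * s) :
    ∃ W : ℕ → ℕ → Submodule F V, (∀ x x' y y', x ≤ x' → y ≤ y' → W x y ≤ W x' y') ∧
      (∀ x y, Inv T (W x y)) ∧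
      ∀ x y, x ≤ Module.finrank F (Fx T) → y ≤ s →
        Module.finrank F (W x y) = x + oq F r * y := by
  have hcompl : ∀ W : Submodule F V, Inv T W → ∃ W' : Submodule F V, Inv T W' ∧ IsCompl W W' :=
    fun W hW => exists_inv_compl (c := 1) (by rw [hT, one_smul]) one_ne_zero hr hW
  have hFx : Inv T (Fx T) := by
    intro w hw
    rw [mem_Fx_D6] at hw
    rw [hw, mem_Fx_D6]
    exact hw
  obtain ⟨B, hB, hFB⟩ := hcompl (Fx T) hFx
  have hBd : Module.finrank F B = oq F r * s := by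
    have := Submodule.finrank_add_eq_of_isCompl hFB
    omega
  obtain ⟨X, hXm, hXB, hXi, hXd⟩ := exists_inv_chain_seq (d := 1) hFx hcompl
    (by
      intro W hW _ hne
      obtain ⟨w, hw, hw0⟩ := Submodule.exists_mem_ne_zero_of_ne_bot hne
      refine ⟨Submodule.span F {w}, ?_, ?_, finrank_span_singleton hw0⟩
      · rw [Submodule.span_singleton_le_iff_mem]
        exact hw
      · intro v hv
        obtain ⟨c, rfl⟩ := Submodule.mem_span_singleton.1 hv
        rw [map_smul, mem_Fx_D6.1 (hW hw)]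
        exact Submodule.smul_mem _ c (Submodule.mem_span_singleton_self w))
    (Module.finrank F (Fx T)) (by rw [one_mul])
  obtain ⟨Y, hYm, hYB, hYi, hYd⟩ := exists_inv_chain_seq (d := oq F r) hB hcompl
    (by
      intro W hW hWi hne
      refine exists_inv_finrank_eq_oq hr hT hWi hne ?_
      intro w hw hTw
      have : w ∈ Fx T ⊓ B := ⟨mem_Fx_D6.2 hTw, hW hw⟩
      rw [hFB.inf_eq_bot] at this
      exact (Submodule.mem_bot F).1 this)
    s (by rw [hBd])
  refine ⟨fun x y => X x ⊔ Y y, ?_, fun x y => inv_sup_D6 (hXi x) (hYi y), ?_⟩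
  · intro x x' y y' hx hy
    exact sup_le_sup (hXm hx) (hYm hy)
  · intro x y hx hy
    have hdisj : X x ⊓ Y y = ⊥ := (hFB.disjoint.mono (hXB x) (hYB y)).eq_bot
    have := Submodule.finrank_sup_add_finrank_inf_eq (X x) (Y y)
    rw [hdisj, finrank_bot, hXd x hx, hYd y hy, one_mul, add_zero] at this
    exact this

end Cfsg.Agent.Lib.Helper67.Elus
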