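import Cfsg.Agent.Lib.Helper67.Elus.DDefs

set_option autoImplicit false

namespace Cfsg.Agent.Lib.Helper67.Elus

variable {F : Type*} [Field F] {V : Type*} [AddCommGroup V] [Module F V]

/-- [D7] -/
theorem grid_arith (c a t e s : ℕ) (hc : 0 < c) (hn : a * t = e + c * s)
    (hk : (a * t) % c = t * (a % c)) :
    ∃ x y : ℕ → ℕ, Monotone x ∧ Monotone y ∧
      ∀ j ≤ t, x j ≤ e ∧ y j ≤ s ∧ x j + c * y j = a * j := by
  obtain ⟨a', l, ha, hl⟩ : ∃ a' l, a = c * a' + l ∧ t * l < c :=
    ⟨a / c, a % c, (Nat.div_add_mod a c).symm, hk ▸ Nat.mod_lt _ hc⟩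
  subst ha
  have hs : s ≤ t * a' := by
    by_contra h
    push Not at h
    have h1 : c * (t * a' + 1) ≤ c * s := Nat.mul_le_mul_left c h
    nlinarith
  have hmx : Monotone (fun j : ℕ => j * l + c * (j * a' - s)) := by
    intro i j hij
    have h1 : i * l ≤ j * l := Nat.mul_le_mul_right l hij
    have h2 : i * a' ≤ j * a' := Nat.mul_le_mul_right a' hij
    have h3 : i * a' - s ≤ j * a' - s := Nat.sub_le_sub_right h2 s
    exact add_le_add h1 (Nat.mul_le_mul_left c h3)
  have heq : ∀ j : ℕ, j * l + c * (j * a' - s) + c * min (j * a') s = (c * a' + l) * j := by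
    intro j
    have h4 : (j * a' - s) + min (j * a') s = j * a' := by omega
    have h5 : c * (j * a' - s) + c * min (j * a') s = c * (j * a') := by
      rw [← Nat.mul_add, h4]
    calc j * l + c * (j * a' - s) + c * min (j * a') s
        = j * l + (c * (j * a' - s) + c * min (j * a') s) := by ring
      _ = j * l + c * (j * a') := by rw [h5]
      _ = (c * a' + l) * j := by ring
  refine ⟨fun j => j * l + c * (j * a' - s), fun j => min (j * a') s, hmx, ?_, ?_⟩
  · intro i j hij
    exact min_le_min_right s (Nat.mul_le_mul_right a' hij)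
  · intro j hj
    refine ⟨?_, min_le_right _ _, heq j⟩
    have h6 := heq t
    rw [min_eq_right hs, hn] at h6
    have h7 : t * l + c * (t * a' - s) = e := by omega
    rw [← h7]
    exact hmx hj

end Cfsg.Agent.Lib.Helper67.Elus
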