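import Cfsg.Agent.Lib.Helper67.Elus.DDefs
import Cfsg.Agent.Lib.Helper67.Elus.M2a
import Cfsg.Agent.Lib.Helper67.Elus.GEN
import Cfsg.Agent.Lib.Helper67.Elus.D3

set_option autoImplicit false

namespace Cfsg.Agent.Lib.Helper67.Elus

variable {F : Type*} [Field F] {V : Type*} [AddCommGroup V] [Module F V]

/-- [D9] -/
theorem stab_of_not_pow_a [FiniteDimensional F V] {T : Module.End F V} {r : ℕ} [Fact r.Prime]
    {z : F} (hT : T ^ r = z • 1) (hz : ∀ d : F, d ^ r ≠ z) {a t : ℕ}
    (hV : Module.finrank F V = a * t) (hra : r ∣ a) : Stab T a t := by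
  have hrp : r.Prime := Fact.out
  have hz0 : z ≠ 0 := by
    intro h
    exact hz 0 (by rw [h, zero_pow hrp.ne_zero])
  obtain ⟨a', rfl⟩ := hra
  have hB : Inv T (⊤ : Submodule F V) := fun _ _ => Submodule.mem_top
  obtain ⟨v, -, hv⟩ := exists_cyclic_gens (T := T) hrp.pos hT (d := r) hB
    (fun W _ hW => dvd_finrank_of_not_pow hT hz hW) (t * a')
    (by rw [finrank_top, hV]; exact le_of_eq (by ring))
  let U' : Fin t → Submodule F V := fun l =>
    Submodule.span F (Set.range fun xi : Fin a' × Fin r =>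
      (T ^ (xi.2 : ℕ)) (v (finProdFinEquiv (l, xi.1))))
  refine stab_of_cyclic hrp.pos hz0 hT (fun _ : Fin 0 => ⊥) U' (a := r * a') ?_ ?_ ?_ ?_ hV ?_
  · intro k; exact k.elim0
  · intro l
    have := finrank_range_le_card (R := F) (fun xi : Fin a' × Fin r =>
      (T ^ (xi.2 : ℕ)) (v (finProdFinEquiv (l, xi.1))))
    rw [Fintype.card_prod, Fintype.card_fin, Fintype.card_fin] at this
    exact this.trans (le_of_eq (mul_comm _ _))
  · intro l w hw
    refine Submodule.span_induction (p := fun w _ => T w ∈ U' l) ?_ ?_ ?_ ?_ hw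
    · rintro _ ⟨⟨x, i⟩, rfl⟩
      by_cases h : (i : ℕ) + 1 < r
      · refine Submodule.subset_span ⟨(x, ⟨(i : ℕ) + 1, h⟩), ?_⟩
        simp only [pow_succ', Module.End.mul_apply]
      · have hi : (i : ℕ) + 1 = r := by have := i.2; omega
        have e : T ((T ^ (i : ℕ)) (v (finProdFinEquiv (l, x)))) =
            z • v (finProdFinEquiv (l, x)) := by
          rw [← Module.End.mul_apply, ← pow_succ', hi, hT]
          simp
        show T ((T ^ (i : ℕ)) (v (finProdFinEquiv (l, x)))) ∈ U' l
        rw [e]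
        refine Submodule.smul_mem _ _ (Submodule.subset_span ⟨(x, ⟨0, hrp.pos⟩), ?_⟩)
        simp
    · simp
    · intro x y _ _ hx hy
      rw [map_add]; exact Submodule.add_mem _ hx hy
    · intro c x _ hx
      rw [map_smul]; exact Submodule.smul_mem _ _ hx
  · rw [eq_top_iff]
    refine hv.trans (le_sup_of_le_right ?_)
    refine iSup_le fun k => iSup_le fun i => ?_
    obtain ⟨⟨l, x⟩, rfl⟩ := finProdFinEquiv.surjective k
    refine le_iSup_of_le l ?_
    rw [Submodule.span_singleton_le_iff_mem]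
    exact Submodule.subset_span ⟨(x, i), rfl⟩
  · simp only [Fintype.card_fin]
    ring

end Cfsg.Agent.Lib.Helper67.Elus
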