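import Cfsg.Agent.Lib.Helper67.Elus.DDefs
import Cfsg.Agent.Lib.Helper67.Elus.S6

set_option autoImplicit false

namespace Cfsg.Agent.Lib.Helper67.Elus

variable {F : Type*} [Field F] {V : Type*} [AddCommGroup V] [Module F V]

theorem model_E1 [Fintype F] {r : ℕ} [Fact r.Prime] (hi2 : 2 ≤ oq F r) (n N e : ℕ)
    (hN : 0 < N) (hn : n = e + oq F r * N) (K : Type*) [Field K] [Algebra F K] [Module.Finite F K] (ζ : K)
    (hK : Module.finrank F K = oq F r) (hζ : ζ ^ r = 1)
    (hζz : ∀ z : F, ζ ≠ algebraMap F K z) :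
    ∃ T : Module.End F (Fin n → F), T ^ r = 1 ∧ LinearMap.det T = 1 ∧
      Module.finrank F (Fx T) = e ∧ ∀ z : F, T ≠ z • 1 := by
  obtain ⟨i, hi⟩ : ∃ i, i = oq F r := ⟨_, rfl⟩
  rw [← hi] at hK hn
  have hζ1 : ζ ≠ 1 := by
    have := hζz 1
    rwa [map_one] at this
  have hE : Module.finrank F ((Fin N → K) × (Fin e → F)) = Module.finrank F (Fin n → F) := by
    rw [Module.finrank_prod, Module.finrank_pi_fintype, Module.finrank_fin_fun,
      Module.finrank_fin_fun]
    simp only [hK, Finset.sum_const, Finset.card_univ, Fintype.card_fin, smul_eq_mul]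
    rw [hn, mul_comm, add_comm]
  let φ : ((Fin N → K) × (Fin e → F)) ≃ₗ[F] (Fin n → F) := LinearEquiv.ofFinrankEq _ _ hE
  let T₀ : Module.End F ((Fin N → K) × (Fin e → F)) :=
    LinearMap.prodMap (Algebra.lsmul F F (Fin N → K) ζ) LinearMap.id
  have hT₀ : ∀ x, T₀ x = (ζ • x.1, x.2) := fun x => rfl
  have hpow : ∀ (k : ℕ) x, (T₀ ^ k) x = (ζ ^ k • x.1, x.2) := by
    intro k
    induction k with
    | zero => intro x; simp
    | succ k ih =>
      intro x
      rw [pow_succ', Module.End.mul_apply, ih, hT₀, pow_succ', mul_smul]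
  have hT₀r : T₀ ^ r = 1 := LinearMap.ext fun x => by
    rw [hpow, hζ, one_smul]; rfl
  have hT : ∀ y, (φ.conjAlgEquiv F T₀) y = φ (T₀ (φ.symm y)) := fun y => rfl
  have hTr : (φ.conjAlgEquiv F T₀) ^ r = 1 := by rw [← map_pow, hT₀r, map_one]
  refine ⟨φ.conjAlgEquiv F T₀, hTr, ?_, ?_, ?_⟩
  · exact root_one_S6 hi2 _ (by rw [← map_pow, hTr, map_one])
  · have hFx0 : Fx T₀ = LinearMap.range (LinearMap.inr F (Fin N → K) (Fin e → F)) := by
      ext x
      rw [Fx, LinearMap.mem_ker, LinearMap.sub_apply, hT₀, Module.End.one_apply,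
        LinearMap.mem_range]
      constructor
      · intro hx
        have h1 : ζ • x.1 - x.1 = 0 := congrArg Prod.fst hx
        have h2 : (ζ - 1) • x.1 = 0 := by rw [sub_smul, one_smul]; exact h1
        have h3 : x.1 = 0 := (smul_eq_zero.mp h2).resolve_left (sub_ne_zero.mpr hζ1)
        exact ⟨x.2, Prod.ext h3.symm rfl⟩
      · rintro ⟨y, rfl⟩
        simp
    have hfx0 : Module.finrank F (Fx T₀) = e := by
      rw [hFx0, LinearMap.finrank_range_of_inj LinearMap.inr_injective, Module.finrank_fin_fun]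
    have hFx : Fx (φ.conjAlgEquiv F T₀) = (Fx T₀).map (φ : _ →ₗ[F] _) := by
      ext y
      rw [Submodule.mem_map_equiv, Fx, Fx, LinearMap.mem_ker, LinearMap.mem_ker,
        LinearMap.sub_apply, LinearMap.sub_apply, hT, Module.End.one_apply, Module.End.one_apply,
        sub_eq_zero, sub_eq_zero]
      exact φ.eq_symm_apply.symm
    rw [hFx, LinearEquiv.finrank_map_eq, hfx0]
  · intro z hz
    have h1 : (φ.conjAlgEquiv F T₀) (φ (Pi.single ⟨0, hN⟩ 1, 0))
        = z • φ (Pi.single ⟨0, hN⟩ 1, 0) := by rw [hz]; rfl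
    rw [hT, φ.symm_apply_apply, ← map_smul] at h1
    have h2 := φ.injective h1
    rw [hT₀] at h2
    have h3 := congrFun (congrArg Prod.fst h2) ⟨0, hN⟩
    simp only [Prod.smul_fst, Pi.smul_apply, Pi.single_eq_same, smul_eq_mul, mul_one] at h3
    exact hζz z (by rw [Algebra.algebraMap_eq_smul_one]; exact h3)

open Polynomial in
/-- [E1] -/
theorem exists_order_r_gen [Fintype F] {r : ℕ} [Fact r.Prime] (hr : (r : F) ≠ 0) (n N e : ℕ)
    (hi2 : 2 ≤ oq F r) (hN : 0 < N) (hn : n = e + oq F r * N) :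
    ∃ T : Module.End F (Fin n → F), T ^ r = 1 ∧ LinearMap.det T = 1 ∧
      Module.finrank F (Fx T) = e ∧ ∀ z : F, T ≠ z • 1 := by
  have hrp : r.Prime := Fact.out
  have hdeg : 0 < (cyclotomic r F).natDegree := by
    rw [natDegree_cyclotomic, Nat.totient_prime hrp]
    have := hrp.two_le
    omega
  obtain ⟨h, hirr, hdvd⟩ := exists_irreducible_of_natDegree_pos hdeg
  haveI : Fact (Irreducible h) := ⟨hirr⟩
  have hnd : h.natDegree = oq F r := natDegree_eq_oq hr hdvd hirr
  have hne : h ≠ 0 := hirr.ne_zero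
  haveI : Module.Finite F (AdjoinRoot h) := (AdjoinRoot.powerBasis hne).finite
  have hK : Module.finrank F (AdjoinRoot h) = oq F r := by
    rw [(AdjoinRoot.powerBasis hne).finrank, AdjoinRoot.powerBasis_dim, hnd]
  have hζ : (AdjoinRoot.root h) ^ r = 1 := by
    have h1 : h ∣ X ^ r - 1 := hdvd.trans (cyclotomic.dvd_X_pow_sub_one r F)
    have h2 := eval₂_eq_zero_of_dvd_of_eval₂_eq_zero (AdjoinRoot.of h) (AdjoinRoot.root h) h1
      (AdjoinRoot.eval₂_root h)
    rw [eval₂_sub, eval₂_pow, eval₂_X, eval₂_one, sub_eq_zero] at h2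
    exact h2
  have hζz : ∀ z : F, AdjoinRoot.root h ≠ algebraMap F (AdjoinRoot h) z := by
    intro z hz
    have h1 : AdjoinRoot.mk h (X - C z) = 0 := by
      rw [map_sub, AdjoinRoot.mk_X, AdjoinRoot.mk_C, hz]
      exact sub_self _
    rw [AdjoinRoot.mk_eq_zero] at h1
    have h2 := natDegree_le_of_dvd h1 (X_sub_C_ne_zero z)
    rw [natDegree_X_sub_C, hnd] at h2
    omega
  exact model_E1 hi2 n N e hN hn (AdjoinRoot h) (AdjoinRoot.root h) hK hζ hζz

end Cfsg.Agent.Lib.Helper67.Elus
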