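import Cfsg.Agent.Lib.Helper67.Elus.DDefs

set_option autoImplicit false

namespace Cfsg.Agent.Lib.Helper67.Elus

variable {F : Type*} [Field F] {V : Type*} [AddCommGroup V] [Module F V]

theorem biSup_inf_biSup_le {J : Type*} {D : J → Submodule F V} (hind : iSupIndep D)
    (S S' : Set J) : (⨆ j ∈ S, D j) ⊓ (⨆ j ∈ S', D j) ≤ ⨆ j ∈ S ∩ S', D j := by
  intro x hx
  obtain ⟨hx1, hx2⟩ := Submodule.mem_inf.1 hx
  have hsplit : (⨆ j ∈ S, D j) = (⨆ j ∈ S ∩ S', D j) ⊔ (⨆ j ∈ S \ S', D j) := by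
    rw [← iSup_union, Set.inter_union_sdiff]
  rw [hsplit] at hx1
  obtain ⟨u, hu, w, hw, rfl⟩ := Submodule.mem_sup.1 hx1
  have hle : (⨆ j ∈ S ∩ S', D j) ≤ ⨆ j ∈ S', D j :=
    biSup_mono (fun j hj => hj.2)
  have hw2 : w ∈ ⨆ j ∈ S', D j := by
    have := Submodule.sub_mem _ hx2 (hle hu)
    simpa using this
  have hdisj : Disjoint (⨆ j ∈ S \ S', D j) (⨆ j ∈ S', D j) :=
    hind.disjoint_biSup_biSup Set.disjoint_sdiff_left
  have hw0 : w = 0 := by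
    have := (Submodule.disjoint_def.1 hdisj) w hw hw2
    exact this
  rw [hw0, add_zero]
  exact hu

end Cfsg.Agent.Lib.Helper67.Elus
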