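import Cfsg.Agent.Lib.Helper67.Elus.G1
import Cfsg.Agent.Lib.Helper67.Elus.G2

set_option autoImplicit false

/-! helper67's farm 3 for S5958, piece E2 (helper12): a moved block bounds the fixed space. -/

namespace Cfsg.Agent.Lib.Helper67.Elus

variable {F : Type*} [Field F] {V : Type*} [AddCommGroup V] [Module F V]

theorem map_pow_E2 {T : Module.End F V} {t : ℕ} (D : Fin t → Submodule F V)
    (σ : Equiv.Perm (Fin t)) (hσ : ∀ j, (D j).map T = D (σ j)) (k : ℕ) (j : Fin t) :
    (D j).map (T ^ k) = D ((σ ^ k) j) := by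
  induction k generalizing j with
  | zero =>
    rw [pow_zero, pow_zero]
    exact Submodule.map_id _
  | succ k ih =>
    rw [pow_succ', pow_succ', Module.End.mul_eq_comp, Submodule.map_comp, ih, hσ]
    rfl

theorem perm_pow_E2 [FiniteDimensional F V] {r : ℕ} {T : Module.End F V}
    (hT : T ^ r = 1) {t a : ℕ} (ha : 0 < a) (D : Fin t → Submodule F V) (hind : iSupIndep D)
    (hdim : ∀ j, Module.finrank F (D j) = a) (σ : Equiv.Perm (Fin t))
    (hσ : ∀ j, (D j).map T = D (σ j)) (j : Fin t) : (σ ^ r) j = j := by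
  have hne : ∀ j, D j ≠ ⊥ := by
    intro j h
    have := hdim j
    rw [h, finrank_bot] at this
    omega
  apply hind.injective hne
  rw [← map_pow_E2 D σ hσ, hT]
  exact Submodule.map_id _

theorem perm_pow_ne_E2 {r : ℕ} [Fact r.Prime] {t : ℕ} (σ : Equiv.Perm (Fin t)) (j : Fin t)
    (hr : (σ ^ r) j = j) (hj : σ j ≠ j) (k : ℕ) (hk0 : 0 < k) (hkr : k < r) :
    (σ ^ k) j ≠ j := by
  have hp : r.Prime := Fact.out
  intro h
  have h1 : Function.IsPeriodicPt σ k j := by
    change σ^[k] j = j
    rw [Equiv.Perm.iterate_eq_pow]; exact h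
  have h2 : Function.IsPeriodicPt σ r j := by
    change σ^[r] j = j
    rw [Equiv.Perm.iterate_eq_pow]; exact hr
  have h3 := h1.gcd h2
  have hc : Nat.gcd k r = 1 := by
    have : Nat.Coprime r k := (Nat.Prime.coprime_iff_not_dvd hp).2
      (fun hd => by have := Nat.le_of_dvd hk0 hd; omega)
    exact this.symm
  rw [hc] at h3
  exact hj h3

theorem perm_pow_injOn_E2 {r : ℕ} [Fact r.Prime] {t : ℕ} (σ : Equiv.Perm (Fin t)) (j : Fin t)
    (hr : (σ ^ r) j = j) (hj : σ j ≠ j) (k k' : ℕ) (hk : k < r) (hk' : k' < r)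
    (h : (σ ^ k) j = (σ ^ k') j) : k = k' := by
  wlog hle : k ≤ k' generalizing k k'
  · exact (this k' k hk' hk h.symm (by omega)).symm
  by_contra hne
  apply perm_pow_ne_E2 σ j hr hj (k' - k) (by omega) (by omega)
  have : (σ ^ k) ((σ ^ (k' - k)) j) = (σ ^ k) j := by
    rw [← Equiv.Perm.mul_apply, ← pow_add, Nat.add_sub_cancel' hle, h]
  exact (σ ^ k).injective this

/-- [E2] -/
theorem finrank_Fx_add_le [FiniteDimensional F V] {r : ℕ} [Fact r.Prime] {T : Module.End F V}
    (hT : T ^ r = 1) {t a : ℕ} (D : Fin t → Submodule F V) (hind : iSupIndep D)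
    (hdim : ∀ j, Module.finrank F (D j) = a) (σ : Equiv.Perm (Fin t))
    (hσ : ∀ j, (D j).map T = D (σ j)) (j : Fin t) (hj : σ j ≠ j) :
    Module.finrank F (Fx T) + a * (r - 1) ≤ Module.finrank F V := by
  classical
  have hp : r.Prime := Fact.out
  rcases Nat.eq_zero_or_pos a with rfl | ha
  · simpa using Submodule.finrank_le (Fx T)
  have hr := perm_pow_E2 hT ha D hind hdim σ hσ j
  have hinj := perm_pow_injOn_E2 σ j hr hj
  set f : ℕ → Fin t := fun i => (σ ^ i) j with hf
  set M : ℕ → Submodule F V := fun k => ⨆ x ∈ (Finset.Ioo k r).image f, D x with hM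
  have hstep : ∀ k, ∀ m ∈ Fx T, m ∈ M k → m ∈ M (k + 1) := by
    intro k m hm hmk
    have hTm : T m = m := by
      have : (T - 1) m = 0 := hm
      rwa [LinearMap.sub_apply, Module.End.one_apply, sub_eq_zero] at this
    have h1 : m ∈ ⨆ x ∈ (Finset.Ioc (k + 1) r).image f, D x := by
      have hle : (M k).map T ≤ ⨆ x ∈ (Finset.Ioc (k + 1) r).image f, D x := by
        rw [Submodule.map_le_iff_le_comap]
        refine iSup₂_le ?_
        intro x hx
        obtain ⟨i, hi, rfl⟩ := Finset.mem_image.1 hx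
        rw [Finset.mem_Ioo] at hi
        rw [← Submodule.map_le_iff_le_comap, hσ]
        have hfi : σ (f i) = f (i + 1) := by
          simp only [hf, pow_succ', Equiv.Perm.mul_apply]
        rw [hfi]
        exact le_iSup₂_of_le (f (i + 1))
          (Finset.mem_image.2 ⟨i + 1, Finset.mem_Ioc.2 ⟨by omega, by omega⟩, rfl⟩) le_rfl
      have := hle (Submodule.mem_map_of_mem hmk)
      rwa [hTm] at this
    have h2 := biSup_inf_biSup_le hind (↑((Finset.Ioo k r).image f))
      (↑((Finset.Ioc (k + 1) r).image f)) ⟨hmk, h1⟩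
    refine (iSup₂_le ?_ : _ ≤ M (k + 1)) h2
    rintro x ⟨hx1, hx2⟩
    obtain ⟨i, hi, rfl⟩ := Finset.mem_image.1 (Finset.mem_coe.1 hx1)
    obtain ⟨i', hi', hii⟩ := Finset.mem_image.1 (Finset.mem_coe.1 hx2)
    rw [Finset.mem_Ioo] at hi
    rw [Finset.mem_Ioc] at hi'
    rcases Nat.lt_or_ge i' r with hlt | hge
    · have : i' = i := hinj i' i hlt hi.2 hii
      subst this
      exact le_iSup₂_of_le (f i')
        (Finset.mem_image.2 ⟨i', Finset.mem_Ioo.2 ⟨by omega, by omega⟩, rfl⟩) le_rfl
    · exfalso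
      have hir : i' = r := by omega
      subst hir
      have h0 : (σ ^ 0) j = (σ ^ i) j := by
        rw [pow_zero, Equiv.Perm.one_apply]
        have : f i' = f i := hii
        simp only [hf] at this
        rw [← this, hr]
      have := hinj 0 i hp.pos hi.2 h0
      omega
  have hall : ∀ k, ∀ m ∈ Fx T, m ∈ M 0 → m ∈ M k := by
    intro k
    induction k with
    | zero => exact fun m _ h => h
    | succ k ih => exact fun m hm h => hstep k m hm (ih m hm h)
  have hMr : M r = ⊥ := by
    simp only [hM, Finset.Ioo_self, Finset.image_empty, Finset.notMem_empty, iSup_false, iSup_bot]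
  have hdisj : Disjoint (Fx T) (M 0) := by
    rw [Submodule.disjoint_def]
    intro m hm hm0
    have := hall r m hm hm0
    rw [hMr] at this
    exact (Submodule.mem_bot F).1 this
  have hfr : Module.finrank F (M 0) = a * (r - 1) := by
    rw [hM]
    simp only
    rw [finrank_biSup_of_indep hind, Finset.sum_congr rfl (fun x _ => hdim x), Finset.sum_const,
      Finset.card_image_of_injOn, Nat.card_Ioo, smul_eq_mul, mul_comm]
    · congr 1
    · intro x hx y hy hxy
      rw [Finset.coe_Ioo, Set.mem_Ioo] at hx hy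
      exact hinj x y hx.2 hy.2 hxy
  rw [← hfr]
  exact Submodule.finrank_add_finrank_le_of_disjoint hdisj

end Cfsg.Agent.Lib.Helper67.Elus
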