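import Cfsg.Agent.Lib.Helper67.Elus.Core
import Cfsg.Agent.Lib.Helper67.Elus.S6
import Cfsg.Agent.Lib.Helper67.Elus.CNT3
import Cfsg.Agent.Lib.Helper67.Elus.CNT4
import Cfsg.Agent.Lib.Helper67.Elus.CNT5
import Cfsg.Agent.Lib.Helper67.Elus.CNT6
import Cfsg.Agent.Lib.Helper67.Elus.AR4

set_option autoImplicit false

namespace Cfsg.Agent.Lib.Helper67.Elus

variable {F : Type*} [Field F]

theorem cast_ne_zero_of_ne [Fintype F] {p : ℕ} [Fact p.Prime] [CharP F p] {r : ℕ} [Fact r.Prime]
    (h : r ≠ p) : (r : F) ≠ 0 := by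
  intro h0
  have := (CharP.cast_eq_zero_iff F p r).1 h0
  exact h ((Nat.prime_dvd_prime_iff_eq Fact.out Fact.out).1 this).symm

/-- residues: `i ∤ n - j` when `j < n % i` -/
theorem not_dvd_sub_of_lt_mod {i n j : ℕ} (hj : j < n % i) : ¬ i ∣ n - j := by
  intro hd
  have hi : 0 < i := by
    rcases Nat.eq_zero_or_pos i with rfl | h
    · simp at hd
      rw [Nat.mod_zero] at hj
      omega
    · exact h
  have h1 : n = i * (n / i) + n % i := (Nat.div_add_mod n i).symm
  have h2 : n - j = i * (n / i) + (n % i - j) := by omega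
  rw [h2, Nat.dvd_add_right (Dvd.intro _ rfl)] at hd
  have h3 := Nat.le_of_dvd (by omega) hd
  have h4 := Nat.mod_lt n hi
  omega

/-- the common part of the two rows, case `oq = 1` : every `T` has the invariant flag iff ... -/
theorem core_one_mp [Fintype F] {n : ℕ} (hn : 0 < n) {r : ℕ} [Fact r.Prime] (m : ℕ)
    (h1 : oq F r = 1)
    (H : ∀ T : Module.End F (Fin n → F), LinearMap.det T = 1 → (∃ c : F, T ^ r = c • 1) →
      (∀ c : F, T ≠ c • 1) → ∃ W : Submodule F (Fin n → F), Module.finrank F W = m ∧ Inv T W) :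
    r ∣ m ∨ (padicValNat r n ≤ padicValNat r (Fintype.card F - 1) ∧
      (r = 2 → Even n → Fintype.card F % 4 = 1)) := by
  by_contra hcon
  push Not at hcon
  obtain ⟨hrm, hcond⟩ := hcon
  obtain ⟨T, c, hT, hc, hdet, hns⟩ := exists_witness_not_pow (F := F) hn (oq_eq_one_iff.1 h1)
    (fun h => by
      obtain ⟨ha, hb⟩ := h
      obtain ⟨h2, he, hq⟩ := hcond ha
      exact hq (hb h2 he))
  obtain ⟨W, hWd, hW⟩ := H T hdet ⟨c, hT⟩ hns
  exact hrm (hWd ▸ dvd_finrank_of_not_pow hT hc hW)

/-- **subspaces** -/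
theorem core_sub [Fintype F] {p : ℕ} [Fact p.Prime] [CharP F p] (n m : ℕ) (hm : 1 ≤ m)
    (hmn : 2 * m ≤ n) (r : ℕ) [Fact r.Prime] (hrΩ : r ∣ cnt F n m) :
    (∀ T : Module.End F (Fin n → F), LinearMap.det T = 1 → (∃ c : F, T ^ r = c • 1) →
      (∀ c : F, T ≠ c • 1) → ∃ W : Submodule F (Fin n → F), Module.finrank F W = m ∧ Inv T W) ↔
    (r ≠ p ∧
      ((oq F r = 1 ∧ (r ∣ m ∨ (padicValNat r n ≤ padicValNat r (Fintype.card F - 1) ∧
          (r = 2 → Even n → Fintype.card F % 4 = 1)))) ∨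
       (2 ≤ oq F r ∧ oq F r ≤ m ∧ m % oq F r ≤ n % oq F r))) := by
  have hn : 0 < n := by omega
  haveI : Nonempty (Fin n) := ⟨⟨0, hn⟩⟩
  have hrp : r ≠ p := by
    rintro rfl
    exact not_dvd_cnt_char (F := F) (p := r) (by omega : m ≤ n) hrΩ
  have hr : (r : F) ≠ 0 := cast_ne_zero_of_ne hrp
  have hpos := oq_pos (F := F) hr
  constructor
  · intro H
    refine ⟨hrp, ?_⟩
    by_cases h1 : oq F r = 1
    · exact Or.inl ⟨h1, core_one_mp hn m h1 H⟩
    · right
      have h2 : 2 ≤ oq F r := by omega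
      have hin : oq F r ≤ n := by
        by_contra hlt
        refine not_dvd_cnt hr (by omega : m ≤ n) (fun j hj hd => ?_) hrΩ
        have := Nat.le_of_dvd (by omega) hd
        omega
      obtain ⟨T, hT, hdet, hfx, hns⟩ := exists_order_r hr n h2 hin
      obtain ⟨W, hWd, hW⟩ := H T hdet ⟨1, by rw [one_smul]; exact hT⟩ hns
      obtain ⟨b, hb⟩ := finrank_inv_eq hr hT hW
      have hle : Module.finrank F (W ⊓ Fx T : Submodule F (Fin n → F)) ≤ n % oq F r := by
        rw [← hfx]; exact Submodule.finrank_mono inf_le_right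
      have hlt : n % oq F r < oq F r := Nat.mod_lt _ hpos
      have hmod : m % oq F r = Module.finrank F (W ⊓ Fx T : Submodule F (Fin n → F)) := by
        rw [← hWd, hb, Nat.add_mul_mod_self_left, Nat.mod_eq_of_lt (by omega)]
      have hmod' : m % oq F r ≤ n % oq F r := by rw [hmod]; exact hle
      refine ⟨h2, ?_, hmod'⟩
      by_contra hlt2
      rw [Nat.mod_eq_of_lt (by omega)] at hmod'
      exact not_dvd_cnt hr (by omega : m ≤ n)
        (fun j hj => not_dvd_sub_of_lt_mod (by omega)) hrΩ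
  · rintro ⟨-, hcase⟩ T hdet ⟨c, hT⟩ hns
    have hc0 : c ≠ 0 := ne_zero_of_det hT hdet
    have key : (∃ d : F, d ^ r = c) → m % oq F r ≤ n % oq F r →
        ∃ W : Submodule F (Fin n → F), Module.finrank F W = m ∧ Inv T W := by
      rintro ⟨d, hd⟩ hmod
      have hd0 : d ≠ 0 := by
        rintro rfl
        rw [zero_pow (Fact.out : r.Prime).ne_zero] at hd
        exact hc0 hd.symm
      obtain ⟨h1, h2⟩ := reduce_pow hT hd hd0
      obtain ⟨W, hWd, hW⟩ := exists_inv_sub_of_one hr h1 m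
        (by rw [Module.finrank_fin_fun]; omega) (by rw [Module.finrank_fin_fun]; exact hmod)
      exact ⟨W, hWd, h2 W hW⟩
    rcases hcase with ⟨h1, hA⟩ | ⟨h2, -, hmod⟩
    · have hmod : m % oq F r ≤ n % oq F r := by rw [h1, Nat.mod_one]; exact Nat.zero_le _
      by_cases hc : ∃ d : F, d ^ r = c
      · exact key hc hmod
      · rcases hA with hrm | hcond
        · push Not at hc
          obtain ⟨k, rfl⟩ := hrm
          obtain ⟨U, W, -, -, hW, -, hWd⟩ := exists_inv_flag_of_not_pow hr hT hc k k le_rfl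
            (by rw [Module.finrank_fin_fun]; omega)
          exact ⟨W, hWd, hW⟩
        · exact absurd (exists_pow_of_cond hn (oq_eq_one_iff.1 h1) hT hdet hcond) hc
    · exact key (exists_pow_eq (Fact.out : r.Prime).pos (coprime_of_two_le_oq h2) c) hmod

/-- **flags** -/
theorem core_flag [Fintype F] {p : ℕ} [Fact p.Prime] [CharP F p] (n m : ℕ) (hm : 1 ≤ m)
    (hmn : 2 * m < n) (r : ℕ) [Fact r.Prime] (hrΩ : r ∣ cnt F n m * cnt F (n - m) (n - m - m)) :
    (∀ T : Module.End F (Fin n → F), LinearMap.det T = 1 → (∃ c : F, T ^ r = c • 1) →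
      (∀ c : F, T ≠ c • 1) → ∃ U W : Submodule F (Fin n → F), U ≤ W ∧ Module.finrank F U = m ∧
        Module.finrank F W = n - m ∧ Inv T U ∧ Inv T W) ↔
    (r ≠ p ∧
      ((oq F r = 1 ∧ (r ∣ m ∨ (padicValNat r n ≤ padicValNat r (Fintype.card F - 1) ∧
          (r = 2 → Even n → Fintype.card F % 4 = 1)))) ∨
       (2 ≤ oq F r ∧ oq F r ≤ m ∧ 2 * (m % oq F r) ≤ n % oq F r))) := by
  have hn : 0 < n := by omega
  haveI : Nonempty (Fin n) := ⟨⟨0, hn⟩⟩
  have hrprime : r.Prime := Fact.out
  have hrp : r ≠ p := by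
    rintro rfl
    rcases (Nat.Prime.dvd_mul hrprime).1 hrΩ with h | h
    · exact not_dvd_cnt_char (F := F) (p := r) (by omega : m ≤ n) h
    · exact not_dvd_cnt_char (F := F) (p := r) (by omega : n - m - m ≤ n - m) h
  have hr : (r : F) ≠ 0 := cast_ne_zero_of_ne hrp
  have hpos := oq_pos (F := F) hr
  constructor
  · intro H
    refine ⟨hrp, ?_⟩
    by_cases h1 : oq F r = 1
    · refine Or.inl ⟨h1, core_one_mp hn m h1 (fun T h1 h2 h3 => ?_)⟩
      obtain ⟨U, W, -, hUd, -, hU, -⟩ := H T h1 h2 h3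
      exact ⟨U, hUd, hU⟩
    · right
      have h2 : 2 ≤ oq F r := by omega
      have hin : oq F r ≤ n := by
        by_contra hlt
        rcases (Nat.Prime.dvd_mul hrprime).1 hrΩ with h | h
        · refine not_dvd_cnt hr (by omega : m ≤ n) (fun j hj hd => ?_) h
          have := Nat.le_of_dvd (by omega) hd
          omega
        · refine not_dvd_cnt hr (by omega : n - m - m ≤ n - m) (fun j hj hd => ?_) h
          have := Nat.le_of_dvd (by omega) hd
          omega
      obtain ⟨T, hT, hdet, hfx, hns⟩ := exists_order_r hr n h2 hin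
      obtain ⟨U, W, hUW, hUd, hWd, hU, hW⟩ := H T hdet ⟨1, by rw [one_smul]; exact hT⟩ hns
      obtain ⟨b₁, hb₁⟩ := finrank_inv_eq hr hT hU
      obtain ⟨b₂, hb₂⟩ := finrank_inv_eq hr hT hW
      have hle : Module.finrank F (W ⊓ Fx T : Submodule F (Fin n → F)) ≤ n % oq F r := by
        rw [← hfx]; exact Submodule.finrank_mono inf_le_right
      have h12 : Module.finrank F (U ⊓ Fx T : Submodule F (Fin n → F)) ≤
          Module.finrank F (W ⊓ Fx T : Submodule F (Fin n → F)) :=
        Submodule.finrank_mono (inf_le_inf_right _ hUW)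
      have hmod' : 2 * (m % oq F r) ≤ n % oq F r :=
        flag_arith_conv (oq F r) n m _ _ b₁ b₂ hpos (by omega) (hUd ▸ hb₁) (hWd ▸ hb₂) h12 hle
      refine ⟨h2, ?_, hmod'⟩
      by_contra hlt2
      rw [Nat.mod_eq_of_lt (by omega)] at hmod'
      rcases (Nat.Prime.dvd_mul hrprime).1 hrΩ with h | h
      · exact not_dvd_cnt hr (by omega : m ≤ n)
          (fun j hj => not_dvd_sub_of_lt_mod (by omega)) h
      · rw [cnt_symm (by omega : n - m - m ≤ n - m)] at h
        have e : n - m - (n - m - m) = m := by omega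
        rw [e] at h
        refine not_dvd_cnt hr (by omega : m ≤ n - m) (fun j hj => ?_) h
        have e2 : n - m - j = n - (m + j) := by omega
        rw [e2]
        exact not_dvd_sub_of_lt_mod (by omega)
  · rintro ⟨-, hcase⟩ T hdet ⟨c, hT⟩ hns
    have hc0 : c ≠ 0 := ne_zero_of_det hT hdet
    have key : (∃ d : F, d ^ r = c) → 2 * (m % oq F r) ≤ n % oq F r →
        ∃ U W : Submodule F (Fin n → F), U ≤ W ∧ Module.finrank F U = m ∧
        Module.finrank F W = n - m ∧ Inv T U ∧ Inv T W := by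
      rintro ⟨d, hd⟩ hmod
      have hd0 : d ≠ 0 := by
        rintro rfl
        rw [zero_pow (Fact.out : r.Prime).ne_zero] at hd
        exact hc0 hd.symm
      obtain ⟨h1, h2⟩ := reduce_pow hT hd hd0
      obtain ⟨U, W, hUW, hUd, hWd, hU, hW⟩ := exists_inv_flag_of_one hr h1 m
        (by rw [Module.finrank_fin_fun]; omega) (by rw [Module.finrank_fin_fun]; exact hmod)
      rw [Module.finrank_fin_fun] at hWd
      exact ⟨U, W, hUW, hUd, hWd, h2 U hU, h2 W hW⟩
    rcases hcase with ⟨h1, hA⟩ | ⟨h2, -, hmod⟩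
    · have hmod : 2 * (m % oq F r) ≤ n % oq F r := by
        rw [h1, Nat.mod_one]; exact Nat.zero_le _
      by_cases hc : ∃ d : F, d ^ r = c
      · exact key hc hmod
      · rcases hA with hrm | hcond
        · push Not at hc
          obtain ⟨k, rfl⟩ := hrm
          have hrn : r ∣ n := by
            have := dvd_finrank_of_not_pow hT hc (W := ⊤) (fun w _ => trivial)
            rwa [finrank_top, Module.finrank_fin_fun] at this
          obtain ⟨l, rfl⟩ := hrn
          have hkl : k ≤ l - k := by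
            have h3 : r * (2 * k) < r * l := by
              calc r * (2 * k) = 2 * (r * k) := by ring
                _ < r * l := hmn
            have := Nat.lt_of_mul_lt_mul_left h3
            omega
          obtain ⟨U, W, hUW, hU, hW, hUd, hWd⟩ := exists_inv_flag_of_not_pow hr hT hc k (l - k) hkl
            (by rw [Module.finrank_fin_fun]; exact Nat.mul_le_mul_left _ (Nat.sub_le _ _))
          exact ⟨U, W, hUW, hUd, by rw [hWd, Nat.mul_sub], hU, hW⟩
        · exact absurd (exists_pow_of_cond hn (oq_eq_one_iff.1 h1) hT hdet hcond) hc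
    · exact key (exists_pow_eq (Fact.out : r.Prime).pos (coprime_of_two_le_oq h2) c) hmod

end Cfsg.Agent.Lib.Helper67.Elus
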