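/-
Piece N3 of helper67's third farm (S5958) (by helper89, adapted from helper8's J10).
-/
import Cfsg.Agent.Lib.Helper67.Elus.DDefs

set_option autoImplicit false

namespace Cfsg.Agent.Lib.Helper67.Elus

variable {F : Type*} [Field F] {V : Type*} [AddCommGroup V] [Module F V]

theorem le_finrank_Fx_inf_orbit [FiniteDimensional F V] {r : ℕ} [Fact r.Prime]
    {T : Module.End F V} (hT : T ^ r = 1) {t a : ℕ} (D : Fin t → Submodule F V)
    (hind : iSupIndep D) (hdim : ∀ j, Module.finrank F (D j) = a) (σ : Equiv.Perm (Fin t))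
    (hσ : ∀ j, (D j).map T = D (σ j)) (j : Fin t) (hj : σ j ≠ j) :
    a ≤ Module.finrank F (Fx T ⊓ ⨆ i ∈ Finset.range r, D ((σ ^ i) j) : Submodule F V) := by
  have hp : r.Prime := Fact.out
  rcases Nat.eq_zero_or_pos a with rfl | ha
  · exact Nat.zero_le _
  have hne : ∀ j, D j ≠ ⊥ := by
    intro j h
    have := hdim j
    rw [h, finrank_bot] at this
    omega
  have hinj : Function.Injective D := hind.injective hne
  have hpow : ∀ (k : ℕ) (j : Fin t), (D j).map (T ^ k) = D ((σ ^ k) j) := by
    intro k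
    induction k with
    | zero =>
      intro j
      rw [pow_zero, pow_zero]
      exact Submodule.map_id _
    | succ k ih =>
      intro j
      rw [pow_succ', pow_succ', Module.End.mul_eq_comp, Submodule.map_comp, ih, hσ]
      rfl
  have hσp : ∀ j, (σ ^ r) j = j := by
    intro j
    apply hinj
    rw [← hpow, hT]
    exact Submodule.map_id _
  have hmove : ∀ k, 0 < k → k < r → (σ ^ k) j ≠ j := by
    intro k hk0 hkp h
    have h1 : Function.IsPeriodicPt σ k j := by
      change σ^[k] j = j
      rw [Equiv.Perm.iterate_eq_pow]; exact h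
    have h2 : Function.IsPeriodicPt σ r j := by
      change σ^[r] j = j
      rw [Equiv.Perm.iterate_eq_pow]; exact hσp j
    have h3 := h1.gcd h2
    have hc : Nat.gcd k r = 1 := by
      have : Nat.Coprime r k := (Nat.Prime.coprime_iff_not_dvd hp).2
        (fun hd => by have := Nat.le_of_dvd hk0 hd; omega)
      exact this.symm
    rw [hc] at h3
    exact hj h3
  set A : Module.End F V := ∑ k ∈ Finset.range r, T ^ k with hA
  have hAinj : ∀ v ∈ D j, A v = 0 → v = 0 := by
    intro v hv hAv
    obtain ⟨n, hn⟩ : ∃ n, r = n + 1 := ⟨r - 1, (Nat.sub_add_cancel hp.one_le).symm⟩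
    rw [hA, hn, Finset.sum_range_succ', LinearMap.add_apply, pow_zero, Module.End.one_apply,
      LinearMap.sum_apply] at hAv
    have h1 : ∑ k ∈ Finset.range n, (T ^ (k + 1)) v ∈ ⨆ i, ⨆ (_ : i ≠ j), D i := by
      apply Submodule.sum_mem
      intro k hk
      have hk' : k + 1 < r := by have := Finset.mem_range.1 hk; omega
      have h2 : (T ^ (k + 1)) v ∈ D ((σ ^ (k + 1)) j) := by
        rw [← hpow]; exact Submodule.mem_map_of_mem hv
      exact Submodule.mem_iSup_of_mem _
        (Submodule.mem_iSup_of_mem (hmove (k + 1) (Nat.succ_pos k) hk') h2)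
    have h3 : v = - ∑ k ∈ Finset.range n, (T ^ (k + 1)) v := by
      rw [eq_neg_iff_add_eq_zero, add_comm]; exact hAv
    have h4 : v ∈ ⨆ i, ⨆ (_ : i ≠ j), D i := by
      rw [h3]; exact Submodule.neg_mem _ h1
    have h5 := (hind j).le_bot ⟨hv, h4⟩
    exact (Submodule.mem_bot F).1 h5
  have hinj' : Function.Injective (A.domRestrict (D j)) := by
    rw [← LinearMap.ker_eq_bot, LinearMap.ker_eq_bot']
    intro v hv
    exact Subtype.ext (hAinj v.1 v.2 hv)
  have h6 := LinearMap.finrank_range_of_inj hinj'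
  rw [hdim] at h6
  rw [← h6]
  apply Submodule.finrank_mono
  rintro _ ⟨v, rfl⟩
  refine Submodule.mem_inf.2 ⟨?_, ?_⟩
  · show A v.1 ∈ LinearMap.ker (T - 1)
    rw [LinearMap.mem_ker, ← Module.End.mul_apply, hA, mul_geom_sum, hT, sub_self]
    rfl
  · show A v.1 ∈ _
    rw [hA, LinearMap.sum_apply]
    apply Submodule.sum_mem
    intro k hk
    have h2 : (T ^ k) v.1 ∈ D ((σ ^ k) j) := by
      rw [← hpow]; exact Submodule.mem_map_of_mem v.2
    exact Submodule.mem_iSup_of_mem k (Submodule.mem_iSup_of_mem hk h2)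

end Cfsg.Agent.Lib.Helper67.Elus
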