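import Cfsg.Agent.Lib.Helper67.Elus.DDefs

set_option autoImplicit false

namespace Cfsg.Agent.Lib.Helper67.Elus

variable {F : Type*} [Field F] {V : Type*} [AddCommGroup V] [Module F V]

theorem finrank_biSup_of_indep [FiniteDimensional F V] {J : Type*} {D : J → Submodule F V}
    (hind : iSupIndep D) (S : Finset J) :
    Module.finrank F (⨆ j ∈ S, D j : Submodule F V) = ∑ j ∈ S, Module.finrank F (D j) := by
  classical
  induction S using Finset.induction_on with
  | empty => simp
  | insert k S hk ih =>
    rw [Finset.iSup_insert, Finset.sum_insert hk, ← ih]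
    have hdisj : Disjoint (D k) (⨆ j ∈ S, D j) :=
      hind.disjoint_biSup (y := (S : Set J)) (by simpa using hk)
    have h1 := Submodule.finrank_sup_add_finrank_inf_eq (D k) (⨆ j ∈ S, D j)
    rw [hdisj.eq_bot, finrank_bot, add_zero] at h1
    exact h1

end Cfsg.Agent.Lib.Helper67.Elus
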