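import Cfsg.Agent.Lib.Helper67.Elus.DDefs
import Cfsg.Agent.Lib.Helper67.Elus.G1

set_option autoImplicit false

namespace Cfsg.Agent.Lib.Helper67.Elus

variable {F : Type*} [Field F] {V : Type*} [AddCommGroup V] [Module F V]

theorem sum_finrank_inf_le [FiniteDimensional F V] {J : Type*} [Fintype J] {D : J → Submodule F V}
    (hind : iSupIndep D) (X : Submodule F V) :
    ∑ j, Module.finrank F (D j ⊓ X : Submodule F V) ≤ Module.finrank F X := by
  have hind' : iSupIndep (fun j => D j ⊓ X) := hind.mono (fun j => inf_le_left)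
  rw [← finrank_biSup_of_indep hind' Finset.univ]
  apply Submodule.finrank_mono
  exact iSup₂_le (fun j _ => inf_le_right)

end Cfsg.Agent.Lib.Helper67.Elus
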