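import Cfsg.Agent.Lib.Helper67.Elus.E2
import Cfsg.Agent.Lib.Helper67.Elus.N3

set_option autoImplicit false

/-! helper67's farm 3 for S5958, piece N5 (helper12): if the fixed blocks are pointwise fixed then
the fixed space has dimension at least `a t / r`. -/

namespace Cfsg.Agent.Lib.Helper67.Elus

variable {F : Type*} [Field F] {V : Type*} [AddCommGroup V] [Module F V]

theorem finrank_add_le_of_disjoint_le_N5 [FiniteDimensional F V] {A B C : Submodule F V}
    (hd : Disjoint A B) (hA : A ≤ C) (hB : B ≤ C) :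
    Module.finrank F A + Module.finrank F B ≤ Module.finrank F C := by
  have h := Submodule.finrank_sup_add_finrank_inf_eq A B
  rw [hd.eq_bot, finrank_bot, add_zero] at h
  rw [← h]
  exact Submodule.finrank_mono (sup_le hA hB)

theorem key_N5 [FiniteDimensional F V] {r : ℕ} [Fact r.Prime] {T : Module.End F V}
    (hT : T ^ r = 1) {t a : ℕ} (ha : 0 < a) (D : Fin t → Submodule F V) (hind : iSupIndep D)
    (hdim : ∀ j, Module.finrank F (D j) = a) (σ : Equiv.Perm (Fin t))
    (hσ : ∀ j, (D j).map T = D (σ j)) (hfix : ∀ j, σ j = j → D j ≤ Fx T) (S : Finset (Fin t)) :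
    (∀ j, j ∈ S ↔ σ j ∈ S) →
      a * S.card ≤ r * Module.finrank F (Fx T ⊓ ⨆ j ∈ S, D j : Submodule F V) := by
  classical
  have hp : r.Prime := Fact.out
  induction S using Finset.strongInduction with
  | H S ih =>
    intro hS
    rcases S.eq_empty_or_nonempty with rfl | ⟨j, hj⟩
    · simp
    have hr := perm_pow_E2 hT ha D hind hdim σ hσ j
    set O : Finset (Fin t) := (Finset.range r).image (fun i => (σ ^ i) j) with hO
    have hjO : j ∈ O := Finset.mem_image.2 ⟨0, Finset.mem_range.2 hp.pos, by simp⟩
    have hpowS : ∀ i : ℕ, (σ ^ i) j ∈ S := by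
      intro i
      induction i with
      | zero => simpa using hj
      | succ i ihi =>
        rw [pow_succ', Equiv.Perm.mul_apply]
        exact (hS _).1 ihi
    have hOS : O ⊆ S := by
      intro x hx
      obtain ⟨i, -, rfl⟩ := Finset.mem_image.1 hx
      exact hpowS i
    have hOσ : ∀ x, x ∈ O ↔ σ x ∈ O := by
      intro x
      constructor
      · intro hx
        obtain ⟨i, hi, rfl⟩ := Finset.mem_image.1 hx
        rw [Finset.mem_range] at hi
        rcases Nat.lt_or_ge (i + 1) r with h | h
        · exact Finset.mem_image.2 ⟨i + 1, Finset.mem_range.2 h, by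
            simp only [pow_succ', Equiv.Perm.mul_apply]⟩
        · have hi1 : i + 1 = r := by omega
          have : σ ((σ ^ i) j) = j := by
            rw [← Equiv.Perm.mul_apply, ← pow_succ', hi1, hr]
          rw [this]
          exact hjO
      · intro hx
        obtain ⟨i, hi, hix⟩ := Finset.mem_image.1 hx
        rw [Finset.mem_range] at hi
        rcases Nat.eq_zero_or_pos i with rfl | hi0
        · refine Finset.mem_image.2 ⟨r - 1, Finset.mem_range.2 (by have := hp.pos; omega), ?_⟩
          apply σ.injective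
          rw [← hix]
          change σ ((σ ^ (r - 1)) j) = (σ ^ 0) j
          rw [← Equiv.Perm.mul_apply, ← pow_succ', Nat.sub_add_cancel hp.one_le, hr]
          simp
        · refine Finset.mem_image.2 ⟨i - 1, Finset.mem_range.2 (by omega), ?_⟩
          apply σ.injective
          rw [← hix]
          change σ ((σ ^ (i - 1)) j) = (σ ^ i) j
          rw [← Equiv.Perm.mul_apply, ← pow_succ', Nat.sub_add_cancel hi0]
    have hS'ss : S \ O ⊂ S := by
      refine Finset.ssubset_iff_subset_ne.2 ⟨Finset.sdiff_subset, ?_⟩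
      intro h
      have : j ∈ S \ O := by rw [h]; exact hj
      exact (Finset.mem_sdiff.1 this).2 hjO
    have hS'σ : ∀ x, x ∈ S \ O ↔ σ x ∈ S \ O := by
      intro x
      rw [Finset.mem_sdiff, Finset.mem_sdiff, ← hS x, ← hOσ x]
    have ih' := ih (S \ O) hS'ss hS'σ
    have hcard : S.card ≤ (S \ O).card + r := by
      have h1 := Finset.card_sdiff_add_card_eq_card hOS
      have h2 : O.card ≤ r := by
        have := Finset.card_image_le (s := Finset.range r) (f := fun i => (σ ^ i) j)
        rwa [Finset.card_range] at this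
      omega
    have hdisj : Disjoint (⨆ x ∈ O, D x) (⨆ x ∈ S \ O, D x) := by
      have := hind.disjoint_biSup_biSup (s := (↑O : Set (Fin t))) (t := (↑(S \ O) : Set (Fin t)))
        (by
          rw [Finset.disjoint_coe]
          exact Finset.disjoint_sdiff)
      exact this
    have hOa : a ≤ Module.finrank F (Fx T ⊓ ⨆ x ∈ O, D x : Submodule F V) := by
      by_cases hjj : σ j = j
      · rw [← hdim j]
        apply Submodule.finrank_mono
        exact le_inf (hfix j hjj) (le_iSup₂_of_le j hjO le_rfl)
      · have := le_finrank_Fx_inf_orbit hT D hind hdim σ hσ j hjj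
        rwa [hO, Finset.iSup_finset_image]
    have hsum := finrank_add_le_of_disjoint_le_N5 (F := F)
      (A := Fx T ⊓ ⨆ x ∈ O, D x) (B := Fx T ⊓ ⨆ x ∈ S \ O, D x) (C := Fx T ⊓ ⨆ x ∈ S, D x)
      (hdisj.mono inf_le_right inf_le_right)
      (inf_le_inf_left _ (biSup_mono (fun x hx => hOS hx)))
      (inf_le_inf_left _ (biSup_mono (fun x hx => (Finset.mem_sdiff.1 hx).1)))
    calc a * S.card ≤ a * ((S \ O).card + r) := Nat.mul_le_mul_left _ hcard
      _ = a * (S \ O).card + r * a := by ring
      _ ≤ r * Module.finrank F (Fx T ⊓ ⨆ x ∈ S \ O, D x : Submodule F V)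
          + r * Module.finrank F (Fx T ⊓ ⨆ x ∈ O, D x : Submodule F V) :=
        Nat.add_le_add ih' (Nat.mul_le_mul_left _ hOa)
      _ = r * (Module.finrank F (Fx T ⊓ ⨆ x ∈ O, D x : Submodule F V)
          + Module.finrank F (Fx T ⊓ ⨆ x ∈ S \ O, D x : Submodule F V)) := by ring
      _ ≤ _ := Nat.mul_le_mul_left _ hsum

/-- [N5] -/
theorem mul_le_mul_finrank_Fx [FiniteDimensional F V] {r : ℕ} [Fact r.Prime] {T : Module.End F V}
    (hT : T ^ r = 1) {t a : ℕ} (D : Fin t → Submodule F V) (hind : iSupIndep D)
    (hdim : ∀ j, Module.finrank F (D j) = a) (σ : Equiv.Perm (Fin t))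
    (hσ : ∀ j, (D j).map T = D (σ j)) (hfix : ∀ j, σ j = j → D j ≤ Fx T) :
    a * t ≤ r * Module.finrank F (Fx T) := by
  rcases Nat.eq_zero_or_pos a with rfl | ha
  · simp
  have h := key_N5 hT ha D hind hdim σ hσ hfix Finset.univ (by simp)
  rw [Finset.card_univ, Fintype.card_fin] at h
  exact h.trans (Nat.mul_le_mul_left _ (Submodule.finrank_mono inf_le_left))

end Cfsg.Agent.Lib.Helper67.Elus
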