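import Cfsg.Agent.Lib.Helper67.Elus.G1
import Cfsg.Agent.Lib.Helper67.Elus.G2
import Cfsg.Agent.Lib.Helper67.Elus.N4
import Cfsg.Agent.Lib.Helper67.Elus.D1
import Cfsg.Agent.Lib.Helper67.Elus.D2
import Cfsg.Agent.Lib.Helper67.Elus.D3
import Cfsg.Agent.Lib.Helper67.Elus.D4
import Cfsg.Agent.Lib.Helper67.Elus.D5
import Cfsg.Agent.Lib.Helper67.Elus.D6
import Cfsg.Agent.Lib.Helper67.Elus.D7
import Cfsg.Agent.Lib.Helper67.Elus.GEN
import Cfsg.Agent.Lib.Helper67.Elus.D9
import Cfsg.Agent.Lib.Helper67.Elus.D11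
import Cfsg.Agent.Lib.Helper67.Elus.D12
import Cfsg.Agent.Lib.Helper67.Elus.E1
import Cfsg.Agent.Lib.Helper67.Elus.E2
import Cfsg.Agent.Lib.Helper67.Elus.N3
import Cfsg.Agent.Lib.Helper67.Elus.N5
import Cfsg.Agent.Lib.Helper67.Elus.CD0
import Cfsg.Agent.Lib.Helper67.Elus.CD1
import Cfsg.Agent.Lib.Helper67.Elus.CD2
import Cfsg.Agent.Lib.Helper67.Elus.CD3
import Cfsg.Agent.Lib.Helper67.Elus.Main

set_option autoImplicit false

namespace Cfsg.Agent.Lib.Helper67.Elus

open Cfsg Cfsg.Geo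

variable {F : Type*} [Field F] {V : Type*} [AddCommGroup V] [Module F V]

theorem stab_smul {T : Module.End F V} {d : F} (hd : d ≠ 0) {a t : ℕ}
    (h : Stab (d⁻¹ • T) a t) : Stab T a t := by
  obtain ⟨D, h1, h2, h3, σ, hσ⟩ := h
  refine ⟨D, h1, h2, h3, σ, fun j => ?_⟩
  rw [← hσ j, Submodule.map_smul _ _ _ (inv_ne_zero hd)]

theorem injective_of_pow_eq_one {T : Module.End F V} {r : ℕ} (hr : 0 < r) (hT : T ^ r = 1) :
    Function.Injective T := by
  intro x y hxy
  obtain ⟨k, rfl⟩ : ∃ k, r = k + 1 := ⟨r - 1, by omega⟩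
  have hx : (T ^ (k + 1)) x = (T ^ (k + 1)) y := by
    rw [pow_succ, Module.End.mul_apply, Module.End.mul_apply, hxy]
  rwa [hT] at hx

/-- `T ^ r = 1`: invariant decompositions -/
theorem stab_of_one [Fintype F] [FiniteDimensional F V] {T : Module.End F V} {r : ℕ}
    [Fact r.Prime] (hr : (r : F) ≠ 0) (hT : T ^ r = 1) {a t : ℕ}
    (hV : Module.finrank F V = a * t) (hk : (a * t) % oq F r = t * (a % oq F r)) :
    Stab T a t := by
  obtain ⟨s, hs⟩ := finrank_eq_Fx_add hr hT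
  obtain ⟨W, hmono, hinv, hdim⟩ := exists_inv_grid hr hT s hs
  obtain ⟨x, y, hx, hy, hxy⟩ := grid_arith (oq F r) a t _ s (oq_pos hr) (hV ▸ hs) hk
  have hT' : T ^ r = (1 : F) • 1 := by rw [one_smul]; exact hT
  refine stab_of_flag (injective_of_pow_eq_one (Fact.out : r.Prime).pos hT)
    (fun W hW => exists_inv_compl hT' one_ne_zero hr hW) (fun i => W (x i) (y i))
    (fun i j hij => hmono _ _ _ _ (hx hij) (hy hij)) (fun i => hinv _ _) ?_ hV
  intro i hi
  obtain ⟨h1, h2, h3⟩ := hxy i hi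
  rw [hdim _ _ h1 h2, h3]

theorem oq_le_pred [Fintype F] {r : ℕ} [Fact r.Prime] (hr : (r : F) ≠ 0) : oq F r ≤ r - 1 := by
  have h0 : ((Fintype.card F : ℕ) : ZMod r) ≠ 0 := by
    intro h
    rw [ZMod.natCast_eq_zero_iff] at h
    have h2 := coprime_card (F := F) hr
    have h3 := Nat.eq_one_of_dvd_coprimes h2 h (dvd_refl r)
    exact (Fact.out : r.Prime).one_lt.ne' h3
  have h1 := ZMod.orderOf_dvd_card_sub_one h0
  exact Nat.le_of_dvd (by have := (Fact.out : r.Prime).two_le; omega) h1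

theorem lines_arith (c n e s r : ℕ) (hc : 1 < c) (hcr : c = r - 1) (hn : n = e + c * s)
    (h : n ≤ (n % c) * r) : s ≤ e := by
  have hr : r = c + 1 := by omega
  subst hr
  have h1 : n % c = e % c := by rw [hn, Nat.add_mul_mod_self_left]
  have h2 : e % c ≤ e := Nat.mod_le _ _
  rw [h1] at h
  by_contra hlt
  push Not at hlt
  have h3 : e % c * (c + 1) ≤ e * (c + 1) := Nat.mul_le_mul_right _ h2
  have h4 : c * (e + 1) ≤ c * s := Nat.mul_le_mul_left _ hlt
  nlinarith

/-- **sufficiency** -/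
theorem core_dec_suff [Fintype F] {n a t r : ℕ} [Fact r.Prime] (hr : (r : F) ≠ 0) (hat : n = a * t)
    (hn : 0 < n)
    (hcond : (a = 1 ∧ 1 < oq F r ∧ oq F r = r - 1 ∧ n ≤ (n % oq F r) * r) ∨
      (oq F r ≤ a ∧ n % oq F r = t * (a % oq F r)))
    (T : Module.End F (Fin n → F)) (hdet : LinearMap.det T = 1) (z : F) (hT : T ^ r = z • 1) :
    Stab T a t := by
  haveI : Nonempty (Fin n) := ⟨⟨0, hn⟩⟩
  have hV : Module.finrank F (Fin n → F) = a * t := by rw [Module.finrank_fin_fun, hat]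
  by_cases hz : ∃ d : F, d ^ r = z
  · obtain ⟨d, hd⟩ := hz
    have hz0 := ne_zero_of_det hT hdet
    have hd0 : d ≠ 0 := by
      rintro rfl
      rw [zero_pow (Fact.out : r.Prime).ne_zero] at hd
      exact hz0 hd.symm
    obtain ⟨h1, -⟩ := reduce_pow hT hd hd0
    apply stab_smul hd0
    rcases hcond with ⟨ha, hc1, hc2, hc3⟩ | ⟨-, hc⟩
    · obtain ⟨s, hs⟩ := finrank_eq_Fx_add hr h1
      have hs' := hs
      rw [Module.finrank_fin_fun] at hs'
      have h2 := stab_lines hr h1 hc2 s hs (lines_arith _ n _ s r hc1 hc2 hs' hc3)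
      rw [hV, ha, one_mul] at h2
      rw [ha]
      exact h2
    · exact stab_of_one hr h1 hV (by rw [← hat]; exact hc)
  · push Not at hz
    have hrn : r ∣ a * t := by
      have := dvd_finrank_of_not_pow hT hz (W := ⊤) (fun w _ => trivial)
      rwa [finrank_top, hV] at this
    rcases ((Fact.out : r.Prime).dvd_mul).1 hrn with h | h
    · exact stab_of_not_pow_a hT hz hV h
    · exact stab_of_not_pow_t hT hz hV h

theorem inv_of_map_eq {T : Module.End F V} {W : Submodule F V} (h : W.map T = W) : Inv T W := by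
  intro w hw
  rw [← h]
  exact Submodule.mem_map_of_mem hw

/-- an invariant subspace of dimension `< oq` is fixed pointwise -/
theorem le_Fx_of_lt [Fintype F] [FiniteDimensional F V] {T : Module.End F V} {r : ℕ}
    [Fact r.Prime] (hr : (r : F) ≠ 0) (hT : T ^ r = 1) {W : Submodule F V} (hW : Inv T W)
    (hlt : Module.finrank F W < oq F r) : W ≤ Fx T := by
  obtain ⟨b, hb⟩ := finrank_inv_eq hr hT hW
  have hb0 : b = 0 := by
    by_contra h
    have : oq F r * 1 ≤ oq F r * b := Nat.mul_le_mul_left _ (Nat.one_le_iff_ne_zero.2 h)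
    omega
  rw [hb0, mul_zero, add_zero] at hb
  have h1 : (W ⊓ Fx T : Submodule F V) = W :=
    Submodule.eq_of_le_of_finrank_eq inf_le_left hb.symm
  rw [← h1]
  exact inf_le_right

theorem nec_arith (c a t n : ℕ) (hc : 0 < c) (hat : n = a * t) (e b : Fin t → ℕ)
    (h : ∀ j, a = e j + c * b j) (hsum : ∑ j, e j ≤ n % c) : n % c = t * (a % c) := by
  have hlt : n % c < c := Nat.mod_lt _ hc
  have he : ∀ j, e j = a % c := by
    intro j
    have h1 : e j ≤ ∑ j, e j := Finset.single_le_sum (fun _ _ => Nat.zero_le _) (Finset.mem_univ j)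
    have h2 : e j < c := by omega
    rw [h j, Nat.add_mul_mod_self_left, Nat.mod_eq_of_lt h2]
  have hs : ∑ j, e j = t * (a % c) := by
    rw [Finset.sum_congr rfl (fun j _ => he j)]
    simp
  have h3 : t * (a % c) < c := by omega
  have h4 : n = t * (a % c) + c * (t * (a / c)) := by
    rw [hat]
    conv_lhs => rw [← Nat.mod_add_div a c]
    ring
  conv_lhs => rw [h4]
  rw [Nat.add_mul_mod_self_left, Nat.mod_eq_of_lt h3]

/-- **necessity** -/
theorem core_dec_nec [Fintype F] {n a t r : ℕ} [Fact r.Prime] (hr : (r : F) ≠ 0) (hat : n = a * t)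
    (ha : 1 ≤ a) (hcn : oq F r ≤ n)
    (h : ∀ T : Module.End F (Fin n → F), LinearMap.det T = 1 → (∃ z : F, T ^ r = z • 1) →
      (∀ z : F, T ≠ z • 1) → Stab T a t) :
    (a = 1 ∧ 1 < oq F r ∧ oq F r = r - 1 ∧ n ≤ (n % oq F r) * r) ∨
      (oq F r ≤ a ∧ n % oq F r = t * (a % oq F r)) := by
  have hc0 := oq_pos (F := F) hr
  by_cases hc1 : oq F r = 1
  · right
    rw [hc1]
    exact ⟨ha, by simp [Nat.mod_one]⟩
  have hi2 : 2 ≤ oq F r := by omega
  obtain ⟨T, hT, hdet, hFx, hns⟩ := exists_order_r hr n hi2 hcn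
  obtain ⟨D, hdim, hind, htop, σ, hσ⟩ := h T hdet ⟨1, by rw [one_smul]; exact hT⟩ hns
  by_cases hca : oq F r ≤ a
  · right
    refine ⟨hca, ?_⟩
    have hfix : ∀ j, σ j = j := by
      intro j
      by_contra hj
      have h1 := le_finrank_Fx_inf_orbit hT D hind hdim σ hσ j hj
      have h2 : Module.finrank F
          (Fx T ⊓ ⨆ i ∈ Finset.range r, D ((σ ^ i) j) : Submodule F (Fin n → F)) ≤
          Module.finrank F (Fx T) := Submodule.finrank_mono inf_le_left
      have h3 : n % oq F r < oq F r := Nat.mod_lt _ hc0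
      omega
    have hinv : ∀ j, Inv T (D j) := fun j => inv_of_map_eq (by rw [hσ j, hfix j])
    choose b hb using fun j => finrank_inv_eq hr hT (hinv j)
    have hsum := sum_finrank_inf_le hind (Fx T)
    rw [hFx] at hsum
    exact nec_arith (oq F r) a t n hc0 hat _ b (fun j => by rw [← hb j, hdim j]) hsum
  · left
    push Not at hca
    obtain ⟨T', hT', hdet', hFx', hns'⟩ := exists_order_r_gen hr n 1 (n - oq F r) hi2 one_pos
      (by omega)
    obtain ⟨D', hdim', hind', htop', σ', hσ'⟩ := h T' hdet' ⟨1, by rw [one_smul]; exact hT'⟩ hns'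
    have hmove : ∃ j, σ' j ≠ j := by
      by_contra hall
      push Not at hall
      have h1 : ∀ j, D' j ≤ Fx T' := fun j =>
        le_Fx_of_lt hr hT' (inv_of_map_eq (by rw [hσ' j, hall j])) (by rw [hdim' j]; exact hca)
      have h2 : (⊤ : Submodule F (Fin n → F)) ≤ Fx T' := by
        rw [← htop']; exact iSup_le h1
      apply hns' 1
      refine LinearMap.ext fun v => ?_
      have h3 : v ∈ Fx T' := h2 trivial
      rw [Fx, LinearMap.mem_ker, LinearMap.sub_apply, sub_eq_zero] at h3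
      rw [h3, one_smul]
    obtain ⟨j, hj⟩ := hmove
    have h1 := finrank_Fx_add_le hT' D' hind' hdim' σ' hσ' j hj
    rw [hFx', Module.finrank_fin_fun] at h1
    have h2 := oq_le_pred (F := F) hr
    have h3 : a * (r - 1) ≤ r - 1 := by omega
    have hr1 : 0 < r - 1 := by omega
    have ha1 : a = 1 := by
      have : a ≤ 1 := by
        by_contra h4
        push Not at h4
        have : 2 * (r - 1) ≤ a * (r - 1) := Nat.mul_le_mul_right _ h4
        omega
      omega
    subst ha1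
    refine ⟨rfl, by omega, by omega, ?_⟩
    have h5 := mul_le_mul_finrank_Fx hT D hind hdim σ hσ (fun j hj =>
      le_Fx_of_lt hr hT (inv_of_map_eq (by rw [hσ j, hj])) (by rw [hdim j]; exact hca))
    rw [hFx] at h5
    rw [hat, mul_comm ((1 * t) % oq F r) r]
    rw [hat] at h5
    exact h5

/-- the counting hypothesis gives `oq ≤ n` -/
theorem oq_le_of_dvd_decomp [Fintype F] {r : ℕ} [Fact r.Prime] (hr : (r : F) ≠ 0) (n a t : ℕ)
    (hat : n = a * t) (ha : 1 ≤ a) (ht : 2 ≤ t)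
    (hΩ : r ∣ Nat.card {D : Fin t → Submodule F (Fin n → F) // IsMDecomposition a D} /
      Nat.factorial t) : oq F r ≤ n := by
  apply oq_le_of_dvd_card_GL hr
  refine dvd_trans ?_ (card_decomp_dvd_card_GL n a t (exists_decomp n a t hat ha ht))
  exact dvd_trans hΩ (Nat.div_dvd_of_dvd (factorial_dvd_card_decomp n a t))

theorem stab_iff {n a t : ℕ} (ha : 1 ≤ a) (ht : 2 ≤ t) (T : Module.End F (Fin n → F)) :
    (∃ D : Fin t → Submodule F (Fin n → F), IsMDecomposition a D ∧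
        ∃ σ : Equiv.Perm (Fin t), ∀ j, (D j).map T = D (σ j)) ↔ Stab T a t := by
  constructor
  · rintro ⟨D, hD, σ, hσ⟩
    exact ⟨D, hD.finrank_eq, hD.indep, hD.iSup_eq_top, σ, hσ⟩
  · rintro ⟨D, h1, h2, h3, σ, hσ⟩
    exact ⟨D, ⟨ht, ha, h1, h2, h3⟩, σ, hσ⟩

end Cfsg.Agent.Lib.Helper67.Elus
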