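/-
Piece J10 of helper67's second farm (S5950 + S5959) (by helper8).
-/
import Cfsg.Agent.Lib.Helper67.Elus.JDefs

set_option autoImplicit false

namespace Cfsg.Agent.Lib.Helper67.Elus

variable {F : Type*} [Field F] {V : Type*} [AddCommGroup V] [Module F V]

theorem le_finrank_range_of_no_fixed [FiniteDimensional F V] {p : ℕ} [Fact p.Prime] {T : Module.End F V}
    (hT : T ^ p = 1) {t a : ℕ} (D : Fin t → Submodule F V) (hind : iSupIndep D)
    (hdim : ∀ j, Module.finrank F (D j) = a) (σ : Equiv.Perm (Fin t))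
    (hσ : ∀ j, (D j).map T = D (σ j)) (ht : 0 < t) (hfix : ∀ j, σ j ≠ j) :
    a ≤ Module.finrank F (LinearMap.range (∑ k ∈ Finset.range p, T ^ k)) := by
  have hp : p.Prime := Fact.out
  rcases Nat.eq_zero_or_pos a with rfl | ha
  · exact Nat.zero_le _
  have hne : ∀ j, D j ≠ ⊥ := by
    intro j h
    have := hdim j
    rw [h, finrank_bot] at this
    omega
  have hinj : Function.Injective D := hind.injective hne
  have hpow : ∀ (k : ℕ) (j : Fin t), (D j).map (T ^ k) = D ((σ ^ k) j) := by
    intro k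
    induction k with
    | zero =>
      intro j
      rw [pow_zero, pow_zero]
      exact Submodule.map_id _
    | succ k ih =>
      intro j
      rw [pow_succ', pow_succ', Module.End.mul_eq_comp, Submodule.map_comp, ih, hσ]
      rfl
  have hσp : ∀ j, (σ ^ p) j = j := by
    intro j
    apply hinj
    rw [← hpow, hT]
    exact Submodule.map_id _
  let j0 : Fin t := ⟨0, ht⟩
  have hmove : ∀ k, 0 < k → k < p → (σ ^ k) j0 ≠ j0 := by
    intro k hk0 hkp h
    have h1 : Function.IsPeriodicPt σ k j0 := by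
      change σ^[k] j0 = j0
      rw [Equiv.Perm.iterate_eq_pow]; exact h
    have h2 : Function.IsPeriodicPt σ p j0 := by
      change σ^[p] j0 = j0
      rw [Equiv.Perm.iterate_eq_pow]; exact hσp j0
    have h3 := h1.gcd h2
    have hc : Nat.gcd k p = 1 := by
      have : Nat.Coprime p k := (Nat.Prime.coprime_iff_not_dvd hp).2
        (fun hd => by have := Nat.le_of_dvd hk0 hd; omega)
      exact this.symm
    rw [hc] at h3
    exact hfix j0 h3
  set A : Module.End F V := ∑ k ∈ Finset.range p, T ^ k with hA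
  have hAinj : ∀ v ∈ D j0, A v = 0 → v = 0 := by
    intro v hv hAv
    obtain ⟨n, rfl⟩ : ∃ n, p = n + 1 := ⟨p - 1, (Nat.sub_add_cancel hp.one_le).symm⟩
    rw [hA, Finset.sum_range_succ', LinearMap.add_apply, pow_zero, Module.End.one_apply,
      LinearMap.sum_apply] at hAv
    have h1 : ∑ k ∈ Finset.range n, (T ^ (k + 1)) v ∈ ⨆ j, ⨆ (_ : j ≠ j0), D j := by
      apply Submodule.sum_mem
      intro k hk
      have hk' : k + 1 < n + 1 := by have := Finset.mem_range.1 hk; omega
      have h2 : (T ^ (k + 1)) v ∈ D ((σ ^ (k + 1)) j0) := by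
        rw [← hpow]; exact Submodule.mem_map_of_mem hv
      exact Submodule.mem_iSup_of_mem _
        (Submodule.mem_iSup_of_mem (hmove (k + 1) (Nat.succ_pos k) hk') h2)
    have h3 : v = - ∑ k ∈ Finset.range n, (T ^ (k + 1)) v := by
      rw [eq_neg_iff_add_eq_zero, add_comm]; exact hAv
    have h4 : v ∈ ⨆ j, ⨆ (_ : j ≠ j0), D j := by
      rw [h3]; exact Submodule.neg_mem _ h1
    have h5 := (hind j0).le_bot ⟨hv, h4⟩
    exact (Submodule.mem_bot F).1 h5
  have hinj' : Function.Injective (A.domRestrict (D j0)) := by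
    rw [← LinearMap.ker_eq_bot, LinearMap.ker_eq_bot']
    intro v hv
    exact Subtype.ext (hAinj v.1 v.2 hv)
  have h6 := LinearMap.finrank_range_of_inj hinj'
  rw [hdim] at h6
  rw [← h6]
  apply Submodule.finrank_mono
  rintro _ ⟨v, rfl⟩
  exact ⟨v.1, rfl⟩

end Cfsg.Agent.Lib.Helper67.Elus
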