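/-
Piece J10a of helper67's second farm (S5950 + S5959) (by helper8).
-/
import Cfsg.Agent.Lib.Helper67.Elus.JDefs

set_option autoImplicit false

namespace Cfsg.Agent.Lib.Helper67.Elus

variable {F : Type*} [Field F] {V : Type*} [AddCommGroup V] [Module F V]

theorem sub_one_pow_eq_sum {p : ℕ} [Fact p.Prime] [CharP F p] (T : Module.End F V) :
    (T - 1) ^ (p - 1) = ∑ k ∈ Finset.range p, T ^ k := by
  have hp : p.Prime := Fact.out
  have h : ((Polynomial.X : Polynomial F) - 1) ^ (p - 1) =
      ∑ k ∈ Finset.range p, (Polynomial.X : Polynomial F) ^ k := by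
    have hne : (Polynomial.X : Polynomial F) - 1 ≠ 0 := by
      have := Polynomial.X_sub_C_ne_zero (1 : F)
      simpa using this
    apply mul_left_cancel₀ hne
    rw [← pow_succ', Nat.sub_add_cancel hp.one_le, sub_pow_char, one_pow, mul_geom_sum]
  have h2 := congrArg (Polynomial.aeval T) h
  simpa using h2

end Cfsg.Agent.Lib.Helper67.Elus
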