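import Cfsg.Agent.Lib.Helper67.Elus.JDefs

set_option autoImplicit false

namespace Cfsg.Agent.Lib.Helper67.Elus

variable {F : Type*} [Field F] {V : Type*} [AddCommGroup V] [Module F V]

/-- [J5] -/
theorem exists_jtype_model (n : ℕ) (μ : Multiset ℕ) (hμ : μ.sum = n) :
    ∃ N : Module.End F (Fin n → F), JType N μ := by
  classical
  let d : μ.ToType → ℕ := fun x => x.1
  have hd : (Finset.univ : Finset μ.ToType).val.map d = μ := Multiset.map_univ_coe μ
  have hcard : Fintype.card (Σ k : μ.ToType, Fin (d k)) = n := by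
    rw [Fintype.card_sigma]
    simp only [Fintype.card_fin]
    rw [← hμ]
    exact congrArg Multiset.sum hd
  let e : (Σ k : μ.ToType, Fin (d k)) ≃ Fin n := Fintype.equivFinOfCardEq hcard
  let b : Module.Basis (Σ k : μ.ToType, Fin (d k)) F (Fin n → F) :=
    (Pi.basisFun F (Fin n)).reindex e.symm
  refine ⟨b.constr F (fun x => if h : (x.2 : ℕ) + 1 < d x.1 then b ⟨x.1, ⟨(x.2 : ℕ) + 1, h⟩⟩ else 0),
    μ.ToType, inferInstance, d, b, hd, ?_⟩
  intro k j
  rw [Module.Basis.constr_basis]

end Cfsg.Agent.Lib.Helper67.Elus
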