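import Cfsg.Agent.Lib.Helper67.Elus.JDefs

set_option autoImplicit false

namespace Cfsg.Agent.Lib.Helper67.Elus

variable {F : Type*} [Field F] {V : Type*} [AddCommGroup V] [Module F V]

theorem exists_le_map_eq_J6 {ι : Type*} (d : ι → ℕ) (s : Multiset ι) :
    ∀ ν : Multiset ℕ, ν ≤ s.map d → ∃ s' ≤ s, s'.map d = ν := by
  induction s using Multiset.induction_on with
  | empty =>
    intro ν h
    rw [Multiset.map_zero, Multiset.le_zero] at h
    exact ⟨0, le_rfl, by rw [h]; rfl⟩
  | cons a s ih =>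
    intro ν h
    rw [Multiset.map_cons] at h
    by_cases hm : d a ∈ ν
    · obtain ⟨ν', rfl⟩ := Multiset.exists_cons_of_mem hm
      have h' : ν' ≤ s.map d := (Multiset.cons_le_cons_iff _).mp h
      obtain ⟨s', hs', hmap⟩ := ih ν' h'
      exact ⟨a ::ₘ s', (Multiset.cons_le_cons_iff _).mpr hs', by rw [Multiset.map_cons, hmap]⟩
    · have h' : ν ≤ s.map d := (Multiset.le_cons_of_notMem hm).mp h
      obtain ⟨s', hs', hmap⟩ := ih ν h'
      exact ⟨s', hs'.trans (Multiset.le_cons_self _ _), hmap⟩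

theorem inv_span_J6 {N : Module.End F V} {ι : Type} {d : ι → ℕ}
    {b : Module.Basis (Σ k : ι, Fin (d k)) F V} (hb : IsChain N d b) (P : ι → Prop) :
    Inv N (Submodule.span F (b '' {x | P x.1})) := by
  intro w hw
  have hle : Submodule.span F (b '' {x | P x.1})
      ≤ (Submodule.span F (b '' {x | P x.1})).comap N := by
    rw [Submodule.span_le]
    rintro _ ⟨⟨k, j⟩, hx, rfl⟩
    show N (b ⟨k, j⟩) ∈ Submodule.span F (b '' {x | P x.1})
    rw [hb k j]
    split_ifs with h
    · exact Submodule.subset_span ⟨⟨k, ⟨(j : ℕ) + 1, h⟩⟩, hx, rfl⟩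
    · exact Submodule.zero_mem _
  exact hle hw

/-- [J6] -/
theorem jtype_split {N : Module.End F V} {μ ν : Multiset ℕ} (h : JType N μ) (hν : ν ≤ μ) :
    ∃ U W : Submodule F V, IsCompl U W ∧ Inv N U ∧ Inv N W ∧ Module.finrank F U = ν.sum := by
  classical
  obtain ⟨ι, _, d, b, hd, hb⟩ := h
  rw [← hd] at hν
  obtain ⟨s', hs', hmap⟩ := exists_le_map_eq_J6 d _ ν hν
  obtain ⟨S, hS⟩ : ∃ S : Finset ι, S.val = s' :=
    ⟨⟨s', Multiset.nodup_of_le hs' Finset.univ.nodup⟩, rfl⟩
  have hdisj : Disjoint (Submodule.span F (b '' {x | x.1 ∈ S}))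
      (Submodule.span F (b '' {x | ¬ x.1 ∈ S})) := by
    apply b.linearIndependent.disjoint_span_image
    rw [Set.disjoint_left]
    intro x hx hx'
    exact hx' hx
  have hcod : Codisjoint (Submodule.span F (b '' {x | x.1 ∈ S}))
      (Submodule.span F (b '' {x | ¬ x.1 ∈ S})) := by
    rw [codisjoint_iff, ← Submodule.span_union, ← Set.image_union]
    have : ({x : Σ k : ι, Fin (d k) | x.1 ∈ S} ∪ {x | ¬ x.1 ∈ S}) = Set.univ := by
      ext x
      simp only [Set.mem_union, Set.mem_setOf_eq, Set.mem_univ, iff_true]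
      exact em _
    rw [this, Set.image_univ, b.span_eq]
  have hfr : Module.finrank F (Submodule.span F (b '' {x | x.1 ∈ S})) = ν.sum := by
    have hrange : b '' {x | x.1 ∈ S}
        = Set.range (b ∘ (Subtype.val : {x : Σ k : ι, Fin (d k) // x.1 ∈ S} → _)) := by
      rw [Set.range_comp, Subtype.range_coe_subtype]
    have hcard : Fintype.card {x : Σ k : ι, Fin (d k) // x.1 ∈ S} = ∑ k ∈ S, d k := by
      rw [Fintype.card_congr (Equiv.subtypeSigmaEquiv (fun k => Fin (d k)) (fun k => k ∈ S)),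
        Fintype.card_sigma]
      simp only [Fintype.card_fin]
      exact Finset.sum_coe_sort S d
    rw [hrange, finrank_span_eq_card (b.linearIndependent.comp _ Subtype.val_injective), hcard,
      ← hmap, ← hS]
    rfl
  exact ⟨Submodule.span F (b '' {x | x.1 ∈ S}), Submodule.span F (b '' {x | ¬ x.1 ∈ S}),
    ⟨hdisj, hcod⟩, inv_span_J6 hb (fun k => k ∈ S), inv_span_J6 hb (fun k => ¬ k ∈ S), hfr⟩

end Cfsg.Agent.Lib.Helper67.Elus
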