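/-
Piece J7a of helper67's second farm (S5950 + S5959) (by helper8).
-/
import Cfsg.Agent.Lib.Helper67.Elus.JDefs

set_option autoImplicit false

namespace Cfsg.Agent.Lib.Helper67.Elus

variable {F : Type*} [Field F] {V : Type*} [AddCommGroup V] [Module F V]

theorem sub_one_pow_J7a {p : ℕ} [Fact p.Prime] [CharP F p] (S : Module.End F V) :
    (S - 1) ^ p = S ^ p - 1 := by
  have h : ((Polynomial.X : Polynomial F) - 1) ^ p = Polynomial.X ^ p - 1 := by
    rw [sub_pow_char, one_pow]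
  have h2 := congrArg (Polynomial.aeval S) h
  simpa using h2

theorem exists_unip [Fintype F] {p : ℕ} [Fact p.Prime] [CharP F p] {T : Module.End F V} {c : F}
    (hT : T ^ p = c • 1) (hc : c ≠ 0) : ∃ d : F, d ≠ 0 ∧ (d⁻¹ • T - 1) ^ p = 0 := by
  obtain ⟨d, hd⟩ := (Finite.injective_iff_surjective.1 (frobenius_inj F p)) c
  have hd' : d ^ p = c := hd
  have hd0 : d ≠ 0 := by
    rintro rfl
    rw [zero_pow (Fact.out : p.Prime).ne_zero] at hd'
    exact hc hd'.symm
  refine ⟨d, hd0, ?_⟩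
  rw [sub_one_pow_J7a, smul_pow, hT, inv_pow, hd', smul_smul, inv_mul_cancel₀ hc, one_smul, sub_self]

end Cfsg.Agent.Lib.Helper67.Elus
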