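import Cfsg.Agent.Lib.Helper67.Elus.JDefs

set_option autoImplicit false

namespace Cfsg.Agent.Lib.Helper67.Elus

variable {F : Type*} [Field F] {V : Type*} [AddCommGroup V] [Module F V]

/-- [J8] -/
theorem partCond_two (n m : ℕ) (hmn : m ≤ n) : PartCond 2 n m ↔ (Odd n ∨ Even m) := by
  constructor
  · intro h
    by_contra hcon
    rw [not_or, Nat.not_odd_iff_even, Nat.not_even_iff_odd] at hcon
    obtain ⟨hn, hm⟩ := hcon
    obtain ⟨ν, hν, hsum⟩ := h (Multiset.replicate (n / 2) 2)
      (fun a ha => by rw [Multiset.eq_of_mem_replicate ha]; omega)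
      (by
        rw [Multiset.sum_replicate, smul_eq_mul]
        have := Nat.even_iff.mp hn
        omega)
    have hν2 : ν = Multiset.replicate (Multiset.card ν) 2 :=
      Multiset.eq_replicate_of_mem
        (fun b hb => Multiset.eq_of_mem_replicate (Multiset.mem_of_le hν hb))
    rw [hν2, Multiset.sum_replicate, smul_eq_mul] at hsum
    have := Nat.odd_iff.mp hm
    omega
  · intro h μ hμ hsum
    have hdec : μ = Multiset.replicate (μ.count 2) 2 + Multiset.replicate (μ.count 1) 1 := by
      ext c
      rw [Multiset.count_add, Multiset.count_replicate, Multiset.count_replicate]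
      by_cases h2 : c = 2
      · subst h2
        simp
      · by_cases h1 : c = 1
        · subst h1
          simp
        · rw [if_neg (Ne.symm h2), if_neg (Ne.symm h1)]
          apply Multiset.count_eq_zero_of_notMem
          intro hc
          have := hμ c hc
          omega
    obtain ⟨a, ha⟩ : ∃ a, a = μ.count 2 := ⟨_, rfl⟩
    obtain ⟨b, hb⟩ : ∃ b, b = μ.count 1 := ⟨_, rfl⟩
    rw [← ha, ← hb] at hdec
    have hn : n = 2 * a + b := by
      rw [← hsum, hdec, Multiset.sum_add, Multiset.sum_replicate, Multiset.sum_replicate,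
        smul_eq_mul, smul_eq_mul]
      omega
    have hpar : n % 2 = 1 ∨ m % 2 = 0 := by
      rcases h with h | h
      · exact Or.inl (Nat.odd_iff.mp h)
      · exact Or.inr (Nat.even_iff.mp h)
    refine ⟨Multiset.replicate (min a (m / 2)) 2
      + Multiset.replicate (m - 2 * min a (m / 2)) 1, ?_, ?_⟩
    · rw [hdec]
      apply add_le_add
      · exact (Multiset.replicate_le_replicate 2).2 (by omega)
      · exact (Multiset.replicate_le_replicate 1).2 (by omega)
    · rw [Multiset.sum_add, Multiset.sum_replicate, Multiset.sum_replicate,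
        smul_eq_mul, smul_eq_mul]
      omega

end Cfsg.Agent.Lib.Helper67.Elus
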