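import Cfsg.Agent.Lib.Helper67.Elus.JDefs

set_option autoImplicit false

namespace Cfsg.Agent.Lib.Helper67.Elus

variable {F : Type*} [Field F] {V : Type*} [AddCommGroup V] [Module F V]

/-- [J9] -/
theorem sum_eq_min_sum_add_count (μ : Multiset ℕ) (p : ℕ) (hp : 0 < p) (hμ : ∀ a ∈ μ, a ≤ p) :
    μ.sum = (μ.map (fun a => min a (p - 1))).sum + μ.count p := by
  induction μ using Multiset.induction_on with
  | empty => simp
  | cons a s ih =>
    have ha : a ≤ p := hμ a (Multiset.mem_cons_self a s)
    have ih' := ih (fun b hb => hμ b (Multiset.mem_cons_of_mem hb))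
    rw [Multiset.sum_cons, Multiset.map_cons, Multiset.sum_cons, Multiset.count_cons, ih']
    split_ifs with h
    · omega
    · omega

end Cfsg.Agent.Lib.Helper67.Elus
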