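import Cfsg.Agent.Lib.Helper67.Elus.JMain
import Cfsg.Prelude.Def_GeometricClasses

set_option autoImplicit false

namespace Cfsg.Agent.Lib.Helper67.Elus

open Cfsg Cfsg.Geo

variable {F : Type*} [Field F]

/-- **unipotent elements stabilizing a decomposition** -/
theorem core_decomp [Fintype F] {p : ℕ} [Fact p.Prime] [CharP F p] (n a t : ℕ) (hat : n = a * t)
    (ha : 1 ≤ a) (ht : 2 ≤ t)
    (h : ∀ T : Module.End F (Fin n → F), LinearMap.det T = 1 → (∃ z : F, T ^ p = z • 1) →
      (∀ z : F, T ≠ z • 1) → ∃ D : Fin t → Submodule F (Fin n → F), IsMDecomposition a D ∧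
        ∃ σ : Equiv.Perm (Fin t), ∀ j, (D j).map T = D (σ j)) :
    ∀ μ : Multiset ℕ, (∀ b ∈ μ, 0 < b ∧ b ≤ p) → μ.sum = n → μ.count p < a →
      ∃ ν : Multiset ℕ, ν ≤ μ ∧ ν.sum = a := by
  intro μ hμ hsum hcount
  have han : a ≤ n := by
    rw [hat]; exact Nat.le_mul_of_pos_right _ (by omega)
  by_cases hone : ∀ b ∈ μ, b = 1
  · exact exists_le_of_all_one hone (by omega)
  · push Not at hone
    obtain ⟨N, hN, hNp, h1, h2, h3⟩ := exists_unip_witness (F := F) hμ hsum hone
    obtain ⟨D, hD, σ, hσ⟩ := h (1 + N) h2 ⟨1, by rw [one_smul]; exact h1⟩ h3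
    by_cases hfix : ∃ j, σ j = j
    · obtain ⟨j, hj⟩ := hfix
      have hc : IsCompl (D j) (⨆ (k : Fin t) (_ : k ≠ j), D k) := by
        refine ⟨hD.indep j, ?_⟩
        rw [codisjoint_iff, ← iSup_split_single, hD.iSup_eq_top]
      have hU : Inv (1 + N) (D j) := by
        rw [← map_le_iff_inv', hσ j, hj]
      have hW : Inv (1 + N) (⨆ (k : Fin t) (_ : k ≠ j), D k) := by
        rw [← map_le_iff_inv', Submodule.map_iSup]
        refine iSup_le fun k => ?_
        rw [Submodule.map_iSup]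
        refine iSup_le fun hk => ?_
        rw [hσ k]
        refine le_iSup₂_of_le (σ k) ?_ le_rfl
        intro hk2
        exact hk (σ.injective (hk2.trans hj.symm))
      obtain ⟨ν, hν, hs⟩ := exists_le_of_isCompl (fun b hb => (hμ b hb).1) hN ⟨p, hNp⟩
        (inv_one_add_iff.1 hU) (inv_one_add_iff.1 hW) hc
      exact ⟨ν, hν, by rw [hs, hD.finrank_eq j]⟩
    · exfalso
      push Not at hfix
      have h4 := le_finrank_range_of_no_fixed h1 D hD.indep hD.finrank_eq σ hσ (by omega) hfix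
      rw [← sub_one_pow_eq_sum (p := p), add_sub_cancel_left] at h4
      have h5 := LinearMap.finrank_range_add_finrank_ker (N ^ (p - 1))
      rw [jtype_ker hN, Module.finrank_fin_fun] at h5
      have h6 := sum_eq_min_sum_add_count μ p (Fact.out : p.Prime).pos (fun b hb => (hμ b hb).2)
      omega

end Cfsg.Agent.Lib.Helper67.Elus
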