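import Cfsg.Agent.Lib.Helper67.Elus.JP
import Cfsg.Agent.Lib.Helper67.Elus.J1c
import Cfsg.Agent.Lib.Helper67.Elus.J1b
import Cfsg.Agent.Lib.Helper67.Elus.J5b
import Cfsg.Agent.Lib.Helper67.Elus.J2
import Cfsg.Agent.Lib.Helper67.Elus.J5
import Cfsg.Agent.Lib.Helper67.Elus.J6
import Cfsg.Agent.Lib.Helper67.Elus.J1a
import Cfsg.Agent.Lib.Helper67.Elus.J1z
import Cfsg.Agent.Lib.Helper67.Elus.J1
import Cfsg.Agent.Lib.Helper67.Elus.J4
import Cfsg.Agent.Lib.Helper67.Elus.J8
import Cfsg.Agent.Lib.Helper67.Elus.J9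
import Cfsg.Agent.Lib.Helper67.Elus.J7a
import Cfsg.Agent.Lib.Helper67.Elus.J7b
import Cfsg.Agent.Lib.Helper67.Elus.J10a
import Cfsg.Agent.Lib.Helper67.Elus.J10
import Cfsg.Agent.Lib.Helper67.Elus.CP
import Cfsg.Agent.Lib.Helper67.Elus.Main

set_option autoImplicit false

namespace Cfsg.Agent.Lib.Helper67.Elus

variable {F : Type*} [Field F] {V : Type*} [AddCommGroup V] [Module F V]

theorem restrict_pow_J {N : Module.End F V} {U : Submodule F V} (hU : Inv N U) (k : ℕ) (u : U) :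
    (((N.restrict hU) ^ k) u : V) = (N ^ k) (u : V) := by
  induction k generalizing u with
  | zero => simp
  | succ k ih =>
    rw [pow_succ, pow_succ, Module.End.mul_apply, Module.End.mul_apply, ih]
    rfl

theorem restrict_nilpotent_J {N : Module.End F V} {U : Submodule F V} (hU : Inv N U)
    (hN : IsNilpotent N) : IsNilpotent (N.restrict hU) := by
  obtain ⟨k, hk⟩ := hN
  refine ⟨k, ?_⟩
  ext u
  rw [restrict_pow_J, hk]
  rfl

/-- [JX] an invariant complementary pair splits the Jordan type -/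
theorem exists_le_of_isCompl [FiniteDimensional F V] {N : Module.End F V} {μ : Multiset ℕ}
    (hμ : ∀ a ∈ μ, 0 < a) (h : JType N μ) (hN : IsNilpotent N) {U W : Submodule F V}
    (hU : Inv N U) (hW : Inv N W) (hc : IsCompl U W) :
    ∃ ν : Multiset ℕ, ν ≤ μ ∧ ν.sum = Module.finrank F U := by
  obtain ⟨ν, hν, h1⟩ := exists_jtype (N.restrict hU) (restrict_nilpotent_J hU hN)
  obtain ⟨ν', hν', h2⟩ := exists_jtype (N.restrict hW) (restrict_nilpotent_J hW hN)
  have h3 := jtype_of_isCompl hU hW hc h1 h2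
  have h4 : μ = ν + ν' := by
    apply multiset_eq_of_min_sums hμ
    · intro b hb
      rcases Multiset.mem_add.1 hb with hb | hb
      · exact hν b hb
      · exact hν' b hb
    · intro t
      rw [← jtype_ker h t, ← jtype_ker h3 t]
  exact ⟨ν, by rw [h4]; exact Multiset.le_add_right _ _, jtype_sum h1⟩

theorem map_le_iff_inv' (T : Module.End F V) (W : Submodule F V) : W.map T ≤ W ↔ Inv T W := by
  rw [Submodule.map_le_iff_le_comap]
  rfl

theorem inv_one_add_iff {N : Module.End F V} {W : Submodule F V} : Inv (1 + N) W ↔ Inv N W := by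
  constructor
  · intro h w hw
    have := W.sub_mem (h w hw) hw
    simpa using this
  · intro h w hw
    have := W.add_mem hw (h w hw)
    simpa using this

theorem inv_of_inv_unip {T : Module.End F V} {d : F} (hd : d ≠ 0) {W : Submodule F V}
    (h : Inv (d⁻¹ • T - 1) W) : Inv T W := by
  intro w hw
  have h1 := W.add_mem (h w hw) hw
  have h2 := W.smul_mem d h1
  simp only [LinearMap.sub_apply, LinearMap.smul_apply, Module.End.one_apply, sub_add_cancel,
    smul_smul, mul_inv_cancel₀ hd, one_smul] at h2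
  exact h2

/-- the unipotent witness of type `μ` -/
theorem exists_unip_witness [Fintype F] {p : ℕ} [Fact p.Prime] [CharP F p] {n : ℕ}
    {μ : Multiset ℕ} (hμ : ∀ a ∈ μ, 0 < a ∧ a ≤ p) (hsum : μ.sum = n) (hne : ∃ a ∈ μ, a ≠ 1) :
    ∃ N : Module.End F (Fin n → F), JType N μ ∧ N ^ p = 0 ∧ (1 + N) ^ p = 1 ∧
      LinearMap.det (1 + N) = 1 ∧ ∀ z : F, 1 + N ≠ z • 1 := by
  obtain ⟨N, hN⟩ := exists_jtype_model (F := F) n μ hsum
  have hNp : N ^ p = 0 := jtype_pow_eq_zero hN (fun a ha => (hμ a ha).2)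
  obtain ⟨h1, h2⟩ := unip_props hNp
  refine ⟨N, hN, hNp, h1, h2, ?_⟩
  intro z hz
  have hN' : N = (z - 1) • (1 : Module.End F (Fin n → F)) := by
    rw [sub_smul z 1 (1 : Module.End F (Fin n → F)), one_smul, ← hz]; abel
  have hz1 : (z - 1) ^ p • (1 : Module.End F (Fin n → F)) = 0 := by
    rw [← hNp, hN', smul_pow, one_pow]
  obtain ⟨a, ha, ha1⟩ := hne
  have hN0 : N ^ 1 = 0 := by
    rw [pow_one]
    by_cases hz0 : z - 1 = 0
    · rw [hN', hz0, zero_smul]
    · have h3 : (1 : Module.End F (Fin n → F)) = 0 := by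
        have := congrArg (fun S => ((z - 1) ^ p)⁻¹ • S) hz1
        simpa [smul_smul, inv_mul_cancel₀ (pow_ne_zero p hz0)] using this
      rw [hN', h3, smul_zero]
  have := jtype_le hN hN0 a ha
  have := (hμ a ha).1
  omega

/-- all parts equal to one -/
theorem exists_le_of_all_one {μ : Multiset ℕ} (h : ∀ a ∈ μ, a = 1) {m : ℕ} (hm : m ≤ μ.sum) :
    ∃ ν : Multiset ℕ, ν ≤ μ ∧ ν.sum = m := by
  have h1 : μ = Multiset.replicate (Multiset.card μ) 1 := Multiset.eq_replicate_card.2 h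
  have h2 : μ.sum = Multiset.card μ := by
    conv_lhs => rw [h1]
    simp
  refine ⟨Multiset.replicate m 1, ?_, by simp⟩
  rw [h1, Multiset.replicate_le_replicate]
  omega

/-- **complementary pairs, `r = p`** -/
theorem core_pair_p [Fintype F] {p : ℕ} [Fact p.Prime] [CharP F p] (n m : ℕ) (hmn : m ≤ n)
    (hn : 0 < n) :
    (∀ T : Module.End F (Fin n → F), LinearMap.det T = 1 → (∃ c : F, T ^ p = c • 1) →
      (∀ c : F, T ≠ c • 1) → ∃ U W : Submodule F (Fin n → F), IsCompl U W ∧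
        Module.finrank F U = m ∧ Inv T U ∧ Inv T W) ↔ PartCond p n m := by
  haveI : Nonempty (Fin n) := ⟨⟨0, hn⟩⟩
  constructor
  · intro H μ hμ hsum
    by_cases hone : ∀ a ∈ μ, a = 1
    · exact exists_le_of_all_one hone (by omega)
    · push Not at hone
      obtain ⟨N, hN, hNp, h1, h2, h3⟩ := exists_unip_witness (F := F) hμ hsum hone
      obtain ⟨U, W, hc, hUd, hU, hW⟩ := H (1 + N) h2 ⟨1, by rw [one_smul]; exact h1⟩ h3
      obtain ⟨ν, hν, hs⟩ := exists_le_of_isCompl (fun a ha => (hμ a ha).1) hN ⟨p, hNp⟩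
        (inv_one_add_iff.1 hU) (inv_one_add_iff.1 hW) hc
      exact ⟨ν, hν, by rw [hs, hUd]⟩
  · intro H T hdet ⟨c, hT⟩ _
    have hc0 : c ≠ 0 := ne_zero_of_det hT hdet
    obtain ⟨d, hd, hN⟩ := exists_unip hT hc0
    obtain ⟨μ, hμ, hJ⟩ := exists_jtype _ ⟨p, hN⟩
    obtain ⟨ν, hν, hs⟩ := H μ (fun a ha => ⟨hμ a ha, jtype_le hJ hN a ha⟩)
      (by rw [jtype_sum hJ, Module.finrank_fin_fun])
    obtain ⟨U, W, hc, hU, hW, hUd⟩ := jtype_split hJ hν
    exact ⟨U, W, hc, by rw [hUd, hs], inv_of_inv_unip hd hU, inv_of_inv_unip hd hW⟩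

/-- **complementary pairs, `r ≠ p`** : reduction to subspaces -/
theorem pair_iff_sub [Fintype F] {n m r : ℕ} (hn : 0 < n) (hr : (r : F) ≠ 0) :
    (∀ T : Module.End F (Fin n → F), LinearMap.det T = 1 → (∃ c : F, T ^ r = c • 1) →
      (∀ c : F, T ≠ c • 1) → ∃ U W : Submodule F (Fin n → F), IsCompl U W ∧
        Module.finrank F U = m ∧ Inv T U ∧ Inv T W) ↔
    (∀ T : Module.End F (Fin n → F), LinearMap.det T = 1 → (∃ c : F, T ^ r = c • 1) →
      (∀ c : F, T ≠ c • 1) → ∃ W : Submodule F (Fin n → F), Module.finrank F W = m ∧ Inv T W) := by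
  haveI : Nonempty (Fin n) := ⟨⟨0, hn⟩⟩
  constructor
  · intro H T h1 h2 h3
    obtain ⟨U, W, -, hUd, hU, -⟩ := H T h1 h2 h3
    exact ⟨U, hUd, hU⟩
  · intro H T h1 h2 h3
    obtain ⟨U, hUd, hU⟩ := H T h1 h2 h3
    obtain ⟨c, hT⟩ := h2
    obtain ⟨W, hW, hc⟩ := exists_inv_compl hT (ne_zero_of_det hT h1) hr hU
    exact ⟨U, W, hc, hUd, hU, hW⟩

/-- **complementary pairs** -/
theorem core_pair [Fintype F] {p : ℕ} [Fact p.Prime] [CharP F p] (n m : ℕ) (hm : 1 ≤ m)
    (hmn : 2 * m < n) (r : ℕ) [Fact r.Prime]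
    (hrΩ : r ∣ cnt F n m * Fintype.card F ^ (m * (n - m))) :
    (∀ T : Module.End F (Fin n → F), LinearMap.det T = 1 → (∃ c : F, T ^ r = c • 1) →
      (∀ c : F, T ≠ c • 1) → ∃ U W : Submodule F (Fin n → F), IsCompl U W ∧
        Module.finrank F U = m ∧ Inv T U ∧ Inv T W) ↔
    ((r = p ∧ 2 < p ∧ (∀ μ : Multiset ℕ, (∀ a ∈ μ, 0 < a ∧ a ≤ p) → μ.sum = n →
        ∃ ν : Multiset ℕ, ν ≤ μ ∧ ν.sum = m)) ∨
     (r = p ∧ p = 2 ∧ (Odd n ∨ Even m)) ∨
     (r ≠ p ∧
      ((oq F r = 1 ∧ (r ∣ m ∨ (padicValNat r n ≤ padicValNat r (Fintype.card F - 1) ∧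
          (r = 2 → Even n → Fintype.card F % 4 = 1)))) ∨
       (2 ≤ oq F r ∧ oq F r ≤ m ∧ m % oq F r ≤ n % oq F r)))) := by
  have hn : 0 < n := by omega
  by_cases hrp : r = p
  · subst hrp
    rw [core_pair_p n m (by omega) hn]
    have h2 : 2 ≤ r := (Fact.out : r.Prime).two_le
    constructor
    · intro H
      by_cases h : r = 2
      · right; left
        refine ⟨rfl, h, ?_⟩
        rw [h] at H
        exact (partCond_two n m (by omega)).1 H
      · left
        exact ⟨rfl, by omega, H⟩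
    · rintro (⟨-, -, H⟩ | ⟨-, h, H⟩ | ⟨h, -⟩)
      · exact H
      · rw [h]
        exact (partCond_two n m (by omega)).2 H
      · exact absurd rfl h
  · have hr : (r : F) ≠ 0 := cast_ne_zero_of_ne hrp
    have hcnt : r ∣ cnt F n m := by
      rcases (Nat.Prime.dvd_mul Fact.out).1 hrΩ with h | h
      · exact h
      · exfalso
        have h1 := (Nat.Prime.dvd_of_dvd_pow Fact.out h)
        have h2 := coprime_card (F := F) hr
        have h3 : r ∣ Nat.gcd (Fintype.card F) r := Nat.dvd_gcd h1 dvd_rfl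
        rw [h2] at h3
        exact (Fact.out : r.Prime).one_lt.ne' (Nat.dvd_one.1 h3)
    rw [pair_iff_sub hn hr, core_sub (p := p) n m hm (by omega) r hcnt]
    constructor
    · intro H
      right; right
      exact H
    · rintro (⟨h, -⟩ | ⟨h, -⟩ | H)
      · exact absurd h hrp
      · exact absurd h hrp
      · exact H

end Cfsg.Agent.Lib.Helper67.Elus
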