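import Cfsg.Agent.Lib.Helper67.Elus.Defs

set_option autoImplicit false

namespace Cfsg.Agent.Lib.Helper67.Elus

variable {F : Type*} [Field F] {V : Type*} [AddCommGroup V] [Module F V]

/-- [S4b] -/
theorem exists_between [FiniteDimensional F V] {U W : Submodule F V} (h : U ≤ W) (k : ℕ)
    (h1 : Module.finrank F U ≤ k) (h2 : k ≤ Module.finrank F W) :
    ∃ X : Submodule F V, U ≤ X ∧ X ≤ W ∧ Module.finrank F X = k := by
  induction hm : k - Module.finrank F U generalizing U with
  | zero => exact ⟨U, le_rfl, h, by omega⟩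
  | succ m ih =>
    have hlt : U < W := lt_of_le_of_ne h (by rintro rfl; omega)
    obtain ⟨w, hwW, hwU⟩ := SetLike.exists_of_lt hlt
    have hw0 : w ≠ 0 := by rintro rfl; exact hwU U.zero_mem
    have hfr : Module.finrank F ↥(U ⊔ Submodule.span F {w}) = Module.finrank F U + 1 := by
      have hdisj : U ⊓ Submodule.span F {w} = ⊥ :=
        ((Submodule.disjoint_span_singleton' hw0).mpr hwU).eq_bot
      have := Submodule.finrank_sup_add_finrank_inf_eq U (Submodule.span F {w})
      rw [hdisj, finrank_bot, finrank_span_singleton hw0] at this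
      omega
    obtain ⟨X, hX1, hX2, hX3⟩ := ih (U := U ⊔ Submodule.span F {w})
      (sup_le h ((Submodule.span_singleton_le_iff_mem _ _).2 hwW)) (by omega) (by omega)
    exact ⟨X, le_sup_left.trans hX1, hX2, hX3⟩

end Cfsg.Agent.Lib.Helper67.Elus
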