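import Cfsg.Agent.Lib.Helper67.Elus.S5
import Cfsg.Agent.Lib.Helper67.Elus.S3
import Cfsg.Agent.Lib.Helper67.Elus.S4a
import Cfsg.Agent.Lib.Helper67.Elus.S4b

set_option autoImplicit false

namespace Cfsg.Agent.Lib.Helper67.Elus

variable {F : Type*} [Field F] {V : Type*} [AddCommGroup V] [Module F V]

theorem finrank_sup_of_le_compl [FiniteDimensional F V] {C B X Y : Submodule F V}
    (h : Disjoint C B) (hX : X ≤ C) (hY : Y ≤ B) :
    Module.finrank F (X ⊔ Y : Submodule F V) = Module.finrank F X + Module.finrank F Y := by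
  have hd : X ⊓ Y = ⊥ := (h.mono hX hY).eq_bot
  have := Submodule.finrank_sup_add_finrank_inf_eq X Y
  rw [hd, finrank_bot, add_zero] at this
  exact this

/-- [S4] -/
theorem exists_inv_flag [Fintype F] [FiniteDimensional F V] {T : Module.End F V} {r : ℕ}
    [Fact r.Prime] (hr : (r : F) ≠ 0) (hT : T ^ r = 1) (j₁ j₂ k₁ k₂ : ℕ) (hj : j₁ ≤ j₂)
    (hj2 : j₂ ≤ Module.finrank F (Fx T)) (hk : k₁ ≤ k₂)
    (hk2 : Module.finrank F (Fx T) + oq F r * k₂ ≤ Module.finrank F V) :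
    ∃ U W : Submodule F V, U ≤ W ∧ Inv T U ∧ Inv T W ∧ Module.finrank F U = j₁ + oq F r * k₁ ∧
      Module.finrank F W = j₂ + oq F r * k₂ := by
  have hT' : T ^ r = (1 : F) • 1 := by rw [one_smul]; exact hT
  have hC : Inv T (Fx T) := inv_of_le_Fx le_rfl
  obtain ⟨B, hB, hcompl⟩ := exists_inv_compl hT' one_ne_zero hr hC
  have hdim : Module.finrank F (Fx T) + Module.finrank F B = Module.finrank F V :=
    Submodule.finrank_add_eq_of_isCompl hcompl
  obtain ⟨UB, WB, hUW, hWB, hUi, hWi, hUd, hWd⟩ := exists_inv_chain (d := oq F r) hB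
    (fun W hW => exists_inv_compl hT' one_ne_zero hr hW)
    (fun W hWB hW hne => exists_inv_finrank_eq_oq hr hT hW hne (fun w hw h =>
      (Submodule.disjoint_def.1 hcompl.disjoint) w (mem_Fx.2 h) (hWB hw)))
    k₁ k₂ hk (by omega)
  obtain ⟨X₂, -, hX₂, hX₂d⟩ := exists_between (bot_le : (⊥ : Submodule F V) ≤ Fx T) j₂
    (by rw [finrank_bot]; exact Nat.zero_le _) hj2
  obtain ⟨X₁, -, hX₁, hX₁d⟩ := exists_between (bot_le : (⊥ : Submodule F V) ≤ X₂) j₁
    (by rw [finrank_bot]; exact Nat.zero_le _) (by rw [hX₂d]; exact hj)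
  refine ⟨X₁ ⊔ UB, X₂ ⊔ WB, sup_le_sup hX₁ hUW, inv_sup (inv_of_le_Fx (hX₁.trans hX₂)) hUi,
    inv_sup (inv_of_le_Fx hX₂) hWi, ?_, ?_⟩
  · rw [finrank_sup_of_le_compl hcompl.disjoint (hX₁.trans hX₂) (hUW.trans hWB), hX₁d, hUd]
  · rw [finrank_sup_of_le_compl hcompl.disjoint hX₂ hWB, hX₂d, hWd]

end Cfsg.Agent.Lib.Helper67.Elus
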