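import Cfsg.Agent.Lib.Helper67.Elus.S1
import Cfsg.Agent.Lib.Helper67.Elus.S2

set_option autoImplicit false

namespace Cfsg.Agent.Lib.Helper67.Elus

variable {F : Type*} [Field F] {V : Type*} [AddCommGroup V] [Module F V]

theorem mem_Fx {T : Module.End F V} {v : V} : v ∈ Fx T ↔ T v = v := by
  unfold Fx
  rw [LinearMap.mem_ker, LinearMap.sub_apply, sub_eq_zero]
  rfl

theorem inv_of_le_Fx {T : Module.End F V} {X : Submodule F V} (h : X ≤ Fx T) : Inv T X := by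
  intro w hw
  rw [mem_Fx.1 (h hw)]
  exact hw

theorem inv_inf {T : Module.End F V} {X Y : Submodule F V} (hX : Inv T X) (hY : Inv T Y) :
    Inv T (X ⊓ Y) := fun w hw => ⟨hX w hw.1, hY w hw.2⟩

theorem inv_sup {T : Module.End F V} {X Y : Submodule F V} (hX : Inv T X) (hY : Inv T Y) :
    Inv T (X ⊔ Y) := by
  intro w hw
  obtain ⟨x, hx, y, hy, rfl⟩ := Submodule.mem_sup.1 hw
  rw [map_add]
  exact Submodule.add_mem_sup (hX x hx) (hY y hy)

/-- [S5] -/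
theorem finrank_inv_eq [Fintype F] [FiniteDimensional F V] {T : Module.End F V} {r : ℕ}
    [Fact r.Prime] (hr : (r : F) ≠ 0) (hT : T ^ r = 1) {W : Submodule F V} (hW : Inv T W) :
    ∃ b : ℕ, Module.finrank F W = Module.finrank F (W ⊓ Fx T : Submodule F V) + oq F r * b := by
  have hT' : T ^ r = (1 : F) • 1 := by rw [one_smul]; exact hT
  have hC : Inv T (W ⊓ Fx T) := inv_inf hW (inv_of_le_Fx le_rfl)
  obtain ⟨Y, hY, hcompl⟩ := exists_inv_compl hT' one_ne_zero hr hC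
  have hW' : Inv T (Y ⊓ W) := inv_inf hY hW
  have hfix : ∀ w ∈ Y ⊓ W, T w = w → w = 0 := by
    intro w hw h
    have h1 : w ∈ W ⊓ Fx T := ⟨hw.2, mem_Fx.2 h⟩
    exact (Submodule.disjoint_def.1 hcompl.disjoint) w h1 hw.1
  obtain ⟨b, hb⟩ := oq_dvd_finrank hT hW' hfix
  refine ⟨b, ?_⟩
  have hsup : (W ⊓ Fx T) ⊔ (Y ⊓ W) = W := by
    rw [← sup_inf_assoc_of_le Y (inf_le_left : W ⊓ Fx T ≤ W), hcompl.sup_eq_top, top_inf_eq]
  have hinf : (W ⊓ Fx T) ⊓ (Y ⊓ W) = ⊥ := by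
    rw [eq_bot_iff]
    intro w hw
    exact (Submodule.mem_bot F).2 ((Submodule.disjoint_def.1 hcompl.disjoint) w hw.1 hw.2.1)
  have h := Submodule.finrank_sup_add_finrank_inf_eq (W ⊓ Fx T) (Y ⊓ W)
  rw [hsup, hinf, finrank_bot, add_zero, hb] at h
  exact h

end Cfsg.Agent.Lib.Helper67.Elus
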